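import Mathlib
import Cfsg.Agent.Base
import Cfsg.Agent.Lib.H81.Elation

/-! Finite projective planes with a group of collineations: basic facts on perspectivities. -/

set_option autoImplicit false

namespace H81

open MulAction

/-- A finite projective plane of order `n`. -/
structure Inc (P L : Type*) where
  I : P → L → Prop
  join : ∀ a b, ∃ l, I a l ∧ I b l
  meet : ∀ l k, ∃ a, I a l ∧ I a k
  uniq : ∀ {a b l k}, I a l → I b l → I a k → I b k → a = b ∨ l = k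
  n : ℕ
  two_le : 2 ≤ n
  cardL : ∀ l, {a | I a l}.ncard = n + 1
  cardP : ∀ a, {l | I a l}.ncard = n + 1
  cP : Nat.card P = n ^ 2 + n + 1
  cL : Nat.card L = n ^ 2 + n + 1

/-- The nondegeneracy configuration. -/
def Cfg {P L : Type*} (I : P → L → Prop) (p₁ p₂ p₃ : P) (l₁ l₂ l₃ : L) : Prop :=
  ¬ I p₁ l₂ ∧ ¬ I p₁ l₃ ∧ ¬ I p₂ l₁ ∧ I p₂ l₂ ∧ I p₂ l₃ ∧ ¬ I p₃ l₁ ∧ I p₃ l₂ ∧ ¬ I p₃ l₃

theorem Cfg.dual {P L : Type*} {I : P → L → Prop} {p₁ p₂ p₃ : P} {l₁ l₂ l₃ : L}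
    (h : Cfg I p₁ p₂ p₃ l₁ l₂ l₃) : Cfg (fun l p => I p l) l₁ l₂ l₃ p₁ p₂ p₃ := by
  obtain ⟨h1, h2, h3, h4, h5, h6, h7, h8⟩ := h
  exact ⟨h3, h6, h1, h4, h7, h2, h5, h8⟩

open Configuration in
theorem exists_inc_of_plane (P L : Type*) [Finite P] [Finite L] [Membership P L]
    [ProjectivePlane P L] : ∃ π : Inc P L, ∀ a l, π.I a l ↔ a ∈ l := by
  haveI := Fintype.ofFinite P
  haveI := Fintype.ofFinite L
  refine ⟨⟨fun a l => a ∈ l, fun a b => ?_, fun l k => ?_, fun h1 h2 h3 h4 =>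
    Nondegenerate.eq_or_eq h1 h2 h3 h4, ProjectivePlane.order P L,
    ProjectivePlane.one_lt_order P L, fun l => ProjectivePlane.pointCount_eq P l,
    fun a => ProjectivePlane.lineCount_eq L a, ?_, ?_⟩, fun _ _ => Iff.rfl⟩
  · by_cases h : a = b
    · subst h
      have h1 := ProjectivePlane.lineCount_eq L a
      obtain ⟨⟨l, hl⟩⟩ := (Nat.card_ne_zero.1 (h1.trans_ne (Nat.succ_ne_zero _))).1
      exact ⟨l, hl, hl⟩
    · exact ⟨_, HasLines.mkLine_ax h⟩
  · by_cases h : l = k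
    · subst h
      have h1 := ProjectivePlane.pointCount_eq P l
      obtain ⟨⟨a, ha⟩⟩ := (Nat.card_ne_zero.1 (h1.trans_ne (Nat.succ_ne_zero _))).1
      exact ⟨a, ha, ha⟩
    · exact ⟨_, HasPoints.mkPoint_ax h⟩
  · rw [Nat.card_eq_fintype_card, ProjectivePlane.card_points P L]
  · rw [Nat.card_eq_fintype_card, ProjectivePlane.card_lines P L]

open Configuration in
theorem exists_inc {P L : Type*} [Finite P] [Finite L] (I : P → L → Prop)
    (join : ∀ a b, a ≠ b → ∃ l, I a l ∧ I b l) (meet : ∀ l k, l ≠ k → ∃ a, I a l ∧ I a k)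
    (uniq : ∀ {a b l k}, I a l → I b l → I a k → I b k → a = b ∨ l = k)
    {p₁ p₂ p₃ : P} {l₁ l₂ l₃ : L} (h : Cfg I p₁ p₂ p₃ l₁ l₂ l₃) :
    ∃ π : Inc P L, ∀ a l, π.I a l ↔ I a l := by
  letI : Membership P L := ⟨fun l a => I a l⟩
  choose jn hjn using join
  choose mt hmt using meet
  obtain ⟨h1, h2, h3, h4, h5, h6, h7, h8⟩ := h
  letI : ProjectivePlane P L :=
    { exists_point := fun l => by
        by_contra! hc
        rcases uniq (hc p₂) (hc p₃) h4 h7 with rfl | rfl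
        · exact h8 h5
        · exact h1 (hc p₁)
      exists_line := fun a => by
        by_contra! hc
        rcases uniq (hc l₂) h4 (hc l₃) h5 with rfl | rfl
        · exact h3 (hc l₁)
        · exact h8 h7
      eq_or_eq := fun h1 h2 h3 h4 => uniq h1 h2 h3 h4
      mkPoint := fun h => mt _ _ h
      mkPoint_ax := fun h => hmt _ _ h
      mkLine := fun h => jn _ _ h
      mkLine_ax := fun h => hjn _ _ h
      exists_config := ⟨p₁, p₂, p₃, l₁, l₂, l₃, h1, h2, h3, h4, h5, h6, h7, h8⟩ }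
  exact exists_inc_of_plane P L

theorem exists_ne_ne_of_ncard {X : Type*} {S : Set X} (h : 3 ≤ S.ncard) (a b : X) :
    ∃ c ∈ S, c ≠ a ∧ c ≠ b := by
  by_contra! hc
  have h1 : S ⊆ {a, b} := fun c hS => by
    by_cases h : c = a
    · exact Or.inl h
    · exact Or.inr (hc c hS h)
  have h2 := (Set.ncard_le_ncard h1).trans (Set.ncard_insert_le a {b})
  rw [Set.ncard_singleton] at h2
  omega

namespace Inc

variable {P L : Type*} (π : Inc P L)

/-- The dual plane. -/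
def dual : Inc L P where
  I l a := π.I a l
  join := π.meet
  meet := π.join
  uniq h1 h2 h3 h4 := (π.uniq h1 h3 h2 h4).symm
  n := π.n
  two_le := π.two_le
  cardL := π.cardP
  cardP := π.cardL
  cP := π.cL
  cL := π.cP

include π in
theorem finP : Finite P := Nat.finite_of_card_ne_zero (π.cP.trans_ne (Nat.succ_ne_zero _))

include π in
theorem finL : Finite L := π.dual.finP

variable {π}

theorem line_eq {a b : P} {l k : L} (h : a ≠ b) (h1 : π.I a l) (h2 : π.I b l) (h3 : π.I a k)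
    (h4 : π.I b k) : l = k := (π.uniq h1 h2 h3 h4).resolve_left h

theorem pt_eq {a b : P} {l k : L} (h : l ≠ k) (h1 : π.I a l) (h2 : π.I b l) (h3 : π.I a k)
    (h4 : π.I b k) : a = b := (π.uniq h1 h2 h3 h4).resolve_right h

variable (π)

theorem exists_pt (l : L) (a b : P) : ∃ c, π.I c l ∧ c ≠ a ∧ c ≠ b :=
  exists_ne_ne_of_ncard (S := {a | π.I a l}) (by have := π.two_le; rw [π.cardL]; omega) a b

theorem exists_ln (a : P) (l k : L) : ∃ m, π.I a m ∧ m ≠ l ∧ m ≠ k := π.dual.exists_pt a l k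

theorem exists_not (l : L) : ∃ a, ¬ π.I a l := by
  obtain ⟨a, ha, -⟩ := π.meet l l
  obtain ⟨k, hk, hkl, -⟩ := π.exists_ln a l l
  obtain ⟨c, hc, hca, -⟩ := π.exists_pt k a a
  exact ⟨c, fun h => hca (pt_eq hkl hc hk h ha)⟩

theorem ncard_diff {a : P} {l : L} (h : π.I a l) : ({b | π.I b l} \ {a}).ncard = π.n := by
  haveI := π.finP
  rw [Set.ncard_diff_singleton_of_mem (show a ∈ {b | π.I b l} from h), π.cardL]
  rfl

/-- The full collineation group. -/
def Aut : Subgroup (Equiv.Perm P × Equiv.Perm L) where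
  carrier := {g | ∀ a l, π.I (g.1 a) (g.2 l) ↔ π.I a l}
  one_mem' _ _ := Iff.rfl
  mul_mem' hg hh a l := (hg _ _).trans (hh a l)
  inv_mem' {g} hg a l := by
    rw [← hg]
    simp

instance : MulAction π.Aut P where
  smul g a := g.1.1 a
  one_smul _ := rfl
  mul_smul _ _ _ := rfl

instance : MulAction π.Aut L where
  smul g a := g.1.2 a
  one_smul _ := rfl
  mul_smul _ _ _ := rfl

theorem finAut : Finite π.Aut := by
  haveI := π.finP
  haveI := π.finL
  infer_instance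

end Inc

/-- A plane with a faithful collineation group. -/
structure Pl (G P L : Type*) [Group G] [MulAction G P] [MulAction G L] extends Inc P L where
  smul : ∀ (g : G) a l, I (g • a) (g • l) ↔ I a l
  faith : ∀ {g : G}, (∀ a : P, g • a = a) → g = 1
  faith' : ∀ {g : G}, (∀ l : L, g • l = l) → g = 1

/-- The plane with its full collineation group. -/
def Inc.toPl {P L : Type*} (π : Inc P L) : Pl π.Aut P L where
  toInc := π
  smul g := g.2
  faith {g} h := Subtype.ext (Prod.ext (Equiv.ext h) (Equiv.ext fun l => by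
    obtain ⟨a, ha, -⟩ := π.meet l l
    obtain ⟨b, hb, hba, -⟩ := π.exists_pt l a a
    refine Inc.line_eq hba ?_ ?_ hb ha
    · exact h b ▸ (g.2 b l).2 hb
    · exact h a ▸ (g.2 a l).2 ha))
  faith' {g} h := Subtype.ext (Prod.ext (Equiv.ext fun a => by
    obtain ⟨l, hl, -⟩ := π.join a a
    obtain ⟨k, hk, hkl, -⟩ := π.exists_ln a l l
    refine Inc.pt_eq hkl ?_ hk ?_ hl
    · exact h k ▸ (g.2 a k).2 hk
    · exact h l ▸ (g.2 a l).2 hl) (Equiv.ext h))

namespace Pl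

variable {G P L : Type*} [Group G] [MulAction G P] [MulAction G L] (π : Pl G P L)

/-- The dual plane. -/
def dual : Pl G L P where
  toInc := π.toInc.dual
  smul g l a := π.smul g a l
  faith := π.faith'
  faith' := π.faith

/-- `c` is a centre of `g`. -/
def Cen (g : G) (c : P) : Prop := ∀ l, π.I c l → g • l = l

/-- `l` is an axis of `g`. -/
def Ax (g : G) (l : L) : Prop := ∀ a, π.I a l → g • a = a

variable {π}

theorem I_smul {g : G} {a : P} {l : L} (h : π.I a l) (hl : g • l = l) : π.I (g • a) l :=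
  hl ▸ (π.smul g a l).2 h

theorem I_smul' {g : G} {a : P} {l : L} (h : π.I a l) (ha : g • a = a) : π.I a (g • l) :=
  I_smul (π := π.dual) h ha

theorem fix_line' {g : G} {a b : P} {l : L} (h : a ≠ b) (h1 : π.I a l) (h2 : π.I b l)
    (h3 : π.I (g • a) l) (h4 : π.I (g • b) l) : g • l = l :=
  Inc.line_eq ((MulAction.injective g).ne h) ((π.smul _ _ _).2 h1) ((π.smul _ _ _).2 h2) h3 h4

theorem fix_line {g : G} {a b : P} {l : L} (h : a ≠ b) (h1 : π.I a l) (h2 : π.I b l)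
    (h3 : g • a = a) (h4 : g • b = b) : g • l = l :=
  fix_line' h h1 h2 (h3.symm ▸ h1) (h4.symm ▸ h2)

theorem fix_pt {g : G} {a : P} {l k : L} (h : l ≠ k) (h1 : π.I a l) (h2 : π.I a k)
    (h3 : g • l = l) (h4 : g • k = k) : g • a = a := fix_line (π := π.dual) h h1 h2 h3 h4

theorem Cen.fix {g : G} {c : P} (h : π.Cen g c) : g • c = c := by
  obtain ⟨l, hl, -⟩ := π.join c c
  obtain ⟨k, hk, hkl, -⟩ := π.exists_ln c l l
  exact fix_pt hkl hk hl (h k hk) (h l hl)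

theorem Ax.fix {g : G} {l : L} (h : π.Ax g l) : g • l = l := Cen.fix (π := π.dual) h

theorem Cen.one (c : P) : π.Cen 1 c := fun _ _ => one_smul _ _

theorem Cen.mul {g h : G} {c : P} (h1 : π.Cen g c) (h2 : π.Cen h c) : π.Cen (g * h) c :=
  fun l hl => by rw [mul_smul, h2 l hl, h1 l hl]

theorem Cen.inv {g : G} {c : P} (h1 : π.Cen g c) : π.Cen g⁻¹ c :=
  fun l hl => by rw [inv_smul_eq_iff, h1 l hl]

theorem Cen.conj {g : G} {c : P} (h1 : π.Cen g c) (h : G) : π.Cen (h * g * h⁻¹) (h • c) :=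
  fun l hl => by
    obtain ⟨k, rfl⟩ := MulAction.surjective h l
    exact (Elat.smul_conj_iff h g k).2 (h1 k ((π.smul _ _ _).1 hl))

theorem Ax.mul {g h : G} {l : L} (h1 : π.Ax g l) (h2 : π.Ax h l) : π.Ax (g * h) l :=
  Cen.mul (π := π.dual) h1 h2

theorem Ax.inv {g : G} {l : L} (h1 : π.Ax g l) : π.Ax g⁻¹ l := Cen.inv (π := π.dual) h1

theorem Ax.conj {g : G} {l : L} (h1 : π.Ax g l) (h : G) : π.Ax (h * g * h⁻¹) (h • l) :=
  Cen.conj (π := π.dual) h1 h

theorem Cen.eq_one {g : G} {c d : P} (h1 : π.Cen g c) (h2 : π.Cen g d) (h : c ≠ d) : g = 1 := by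
  obtain ⟨l, hc, hd⟩ := π.join c d
  have key : ∀ z, ¬ π.I z l → g • z = z := fun z hz => by
    obtain ⟨k, k1, k2⟩ := π.join z c
    obtain ⟨m, m1, m2⟩ := π.join z d
    refine fix_pt ?_ k1 m1 (h1 k k2) (h2 m m2)
    rintro rfl
    exact hz (Inc.line_eq h k2 m2 hc hd ▸ k1)
  refine π.faith fun w => ?_
  by_cases hw : π.I w l
  swap
  · exact key w hw
  obtain ⟨k, hk, hkl, -⟩ := π.exists_ln w l l
  obtain ⟨u, hu, huw, -⟩ := π.exists_pt k w w
  obtain ⟨v, hv, hvw, hvu⟩ := π.exists_pt k w u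
  exact fix_pt hkl hk hw (fix_line hvu hv hu (key v fun h => hvw (Inc.pt_eq hkl hv hk h hw))
    (key u fun h => huw (Inc.pt_eq hkl hu hk h hw))) (h1 l hc)

theorem Ax.eq_one {g : G} {l k : L} (h1 : π.Ax g l) (h2 : π.Ax g k) (h : l ≠ k) : g = 1 :=
  Cen.eq_one (π := π.dual) h1 h2 h

theorem Ax.cen_of_fix {g : G} {l : L} (h : π.Ax g l) {z : P} (hz : g • z = z) (hzl : ¬ π.I z l) :
    π.Cen g z := fun k hk => by
  obtain ⟨u, h1, h2⟩ := π.meet k l
  exact fix_line (by rintro rfl; exact hzl h2) hk h1 hz (h u h2)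

theorem Cen.ax_of_fix {g : G} {c : P} (h : π.Cen g c) {k : L} (hk : g • k = k) (hc : ¬ π.I c k) :
    π.Ax g k := Ax.cen_of_fix (π := π.dual) h hk hc

theorem Ax.exists_cen {g : G} {l : L} (h : π.Ax g l) : ∃ c, π.Cen g c := by
  by_cases h1 : ∃ z, g • z = z ∧ ¬ π.I z l
  · obtain ⟨z, h1, h2⟩ := h1
    exact ⟨z, h.cen_of_fix h1 h2⟩
  push Not at h1
  have key : ∀ z, ¬ π.I z l → ∃ k, π.I z k ∧ g • k = k := fun z hz => by
    obtain ⟨k, k1, k2⟩ := π.join z (g • z)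
    obtain ⟨c, c1, c2⟩ := π.meet k l
    exact ⟨k, k1, fix_line' (by rintro rfl; exact hz c2) k1 c1 k2 ((h c c2).symm ▸ c1)⟩
  obtain ⟨z, hz⟩ := π.exists_not l
  obtain ⟨k, k1, k2⟩ := key z hz
  obtain ⟨c, c1, c2⟩ := π.meet k l
  have hkl : k ≠ l := by rintro rfl; exact hz k1
  refine ⟨c, fun m hm => ?_⟩
  by_cases hml : m = l
  · exact hml ▸ h.fix
  obtain ⟨w, hw, hwc, -⟩ := π.exists_pt m c c
  obtain ⟨j, j1, j2⟩ := key w fun h => hwc (Inc.pt_eq hml hw hm h c2)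
  have hcj : π.I c j := by
    by_cases hjk : j = k
    · exact hjk ▸ c1
    obtain ⟨u, u1, u2⟩ := π.meet j k
    exact Inc.pt_eq hkl u2 c1 (h1 u (fix_pt hjk u1 u2 j2 k2)) c2 ▸ u1
  exact Inc.line_eq hwc j1 hcj hw hm ▸ j2

theorem Cen.exists_ax {g : G} {c : P} (h : π.Cen g c) : ∃ l, π.Ax g l :=
  Ax.exists_cen (π := π.dual) h

theorem fix_cases {g : G} {c z : P} {l : L} (h1 : π.Cen g c) (h2 : π.Ax g l) (hg : g ≠ 1)
    (hz : g • z = z) : z = c ∨ π.I z l := by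
  by_contra! h
  exact hg (h1.eq_one (h2.cen_of_fix hz h.2) h.1.symm)

theorem fix_cases' {g : G} {c : P} {l k : L} (h1 : π.Cen g c) (h2 : π.Ax g l) (hg : g ≠ 1)
    (hk : g • k = k) : k = l ∨ π.I c k := fix_cases (π := π.dual) h2 h1 hg hk

/-- An involution with an axis and an incident centre is trivial when the order is odd. -/
theorem eq_one_of_invol (hn : Odd π.n) {g : G} {c : P} {l : L} (hg : g * g = 1)
    (h1 : π.Cen g c) (h2 : π.Ax g l) (h : π.I c l) : g = 1 := by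
  haveI := π.finP
  by_contra hne
  obtain ⟨k, hk, hkl, -⟩ := π.exists_ln c l l
  obtain ⟨z, z1, z2, z3⟩ := exists_fix_of_mapsTo (p := 2) (k := 1) (g := g)
    (by rw [pow_one, pow_two, hg]) (S := {a | π.I a k})
    (fun s => by have := π.smul g s k; rwa [h1 k hk] at this)
    (by rw [Nat.card_coe_set_eq, π.cardL]; exact hn.add_one.two_dvd) hk h1.fix
  exact z2 (Inc.pt_eq hkl z1 hk ((fix_cases h1 h2 hne z3).resolve_left z2) h)

variable (π)

/-- The pointwise fixed structure of `U` contains a quadrangle. -/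
def Planar (S : Set G) : Prop :=
  ∃ p₁ p₂ p₃ l₁ l₂ l₃, Cfg π.I p₁ p₂ p₃ l₁ l₂ l₃ ∧ ∀ g ∈ S, g • p₁ = p₁ ∧ g • p₂ = p₂ ∧
    g • p₃ = p₃ ∧ g • l₁ = l₁ ∧ g • l₂ = l₂ ∧ g • l₃ = l₃

variable {π}

theorem Planar.dual {S : Set G} (h : π.Planar S) : π.dual.Planar S := by
  obtain ⟨p₁, p₂, p₃, l₁, l₂, l₃, h, h'⟩ := h
  exact ⟨l₁, l₂, l₃, p₁, p₂, p₃, h.dual, fun g hg => by have := h' g hg; tauto⟩

theorem exists_fix_line {g : G} (hg : g * g = 1) {u : P} (hu : g • u ≠ u) :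
    ∃ l, π.I u l ∧ g • l = l := by
  obtain ⟨l, h1, h2⟩ := π.join u (g • u)
  exact ⟨l, h1, fix_line' hu.symm h1 h2 h2 (by rwa [← mul_smul, hg, one_smul])⟩

theorem exists_two_fix {g : G} (hg : g * g = 1) (h : ∀ l, ¬ π.Ax g l) {l : L} (hl : g • l = l) :
    ∃ a b, a ≠ b ∧ ¬ π.I a l ∧ ¬ π.I b l ∧ g • a = a ∧ g • b = b := by
  obtain ⟨u, hu, hu'⟩ : ∃ u, π.I u l ∧ g • u ≠ u := by
    by_contra! hc
    exact h l hc
  have key : ∀ k, π.I u k → k ≠ l → ∃ a, π.I a k ∧ a ≠ u ∧ ¬ π.I a l ∧ g • a = a := by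
    intro k hk hkl
    obtain ⟨a, h1, h2⟩ := exists_fix_line (π := π.dual) hg (u := k)
      fun h1 => hu' (fix_pt hkl hk hu h1 hl)
    have h3 : a ≠ u := by rintro rfl; exact hu' h2
    exact ⟨a, h1, h3, fun h4 => h3 (Inc.pt_eq hkl h1 hk h4 hu), h2⟩
  obtain ⟨k, hk, hkl, -⟩ := π.exists_ln u l l
  obtain ⟨m, hm, hml, hmk⟩ := π.exists_ln u l k
  obtain ⟨a, a1, a2, a3, a4⟩ := key k hk hkl
  obtain ⟨b, b1, b2, b3, b4⟩ := key m hm hml
  refine ⟨a, b, ?_, a3, b3, a4, b4⟩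
  rintro rfl
  exact hmk (Inc.line_eq a2 b1 hm a1 hk)

theorem exists_ax_of_invol {g : G} (hg : g * g = 1) (hp : ¬ π.Planar {g}) : ∃ l, π.Ax g l := by
  by_contra! h
  obtain ⟨u, hu⟩ : ∃ u : P, g • u ≠ u := by
    by_contra! hc
    obtain ⟨l⟩ := (Nat.card_ne_zero.1 (π.cL.trans_ne (Nat.succ_ne_zero _))).1
    exact h l fun a _ => hc a
  obtain ⟨l, -, hl⟩ := exists_fix_line (π := π) hg hu
  obtain ⟨a, b, hab, ha, hb, fa, fb⟩ := exists_two_fix hg h hl
  obtain ⟨k, ka, kb⟩ := π.join a b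
  have fk := fix_line hab ka kb fa fb
  obtain ⟨c, kc, hc⟩ := π.meet k l
  have fc := fix_pt (by rintro rfl; exact ha ka) kc hc fk hl
  have hca : c ≠ a := by rintro rfl; exact ha hc
  have hcb : c ≠ b := by rintro rfl; exact hb hc
  obtain ⟨d, e, hde, hd, he, fd, fe⟩ := exists_two_fix hg h fk
  obtain ⟨m, md, me⟩ := π.join d e
  have fm := fix_line hde md me fd fe
  have hmk : m ≠ k := by rintro rfl; exact hd md
  have key : ∀ x y, x ≠ y → π.I x k → π.I y k → g • x = x → g • y = y → ¬ π.I x m → ¬ π.I y m →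
      False := fun x y hxy kx ky fx fy mx my => by
    obtain ⟨j, jx, je⟩ := π.join x e
    have hxe : x ≠ e := by rintro rfl; exact he kx
    refine hp ⟨d, x, y, m, k, j, ⟨hd, fun h1 => mx ?_, mx, kx, jx, my, ky, fun h1 => he ?_⟩, ?_⟩
    · exact Inc.line_eq hde h1 je md me ▸ jx
    · exact Inc.line_eq hxy jx h1 kx ky ▸ je
    · rintro _ rfl
      exact ⟨fd, fx, fy, fm, fk, fix_line hxe jx je fx fe⟩
  by_cases h1 : π.I a m
  · exact key c b hcb kc kb fc fb (fun h2 => hca (Inc.pt_eq hmk h2 h1 kc ka))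
      fun h2 => hab (Inc.pt_eq hmk h1 h2 ka kb)
  by_cases h2 : π.I b m
  · exact key c a hca kc ka fc fa (fun h3 => hcb (Inc.pt_eq hmk h3 h2 kc kb)) h1
  · exact key a b hab ka kb fa fb h1 h2

end Pl

end H81
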