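import Mathlib
import Cfsg.Agent.Base
import Cfsg.Agent.Lib.H81.Plane

/-! A plane of odd order in which every pair of points and every pair of lines is fixed by an
involutory homology has prime power order. -/

set_option autoImplicit false

namespace H81

open MulAction

theorem exists_conj_invol {G : Type*} [Group G] {σ τ : G} (hσ : σ * σ = 1) (hτ : τ * τ = 1)
    (h : Odd (orderOf (σ * τ))) : ∃ w ∈ Subgroup.zpowers (σ * τ), w * τ * w⁻¹ = σ := by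
  obtain ⟨k, hk⟩ := h
  have h1 : τ * (σ * τ)⁻¹ * τ⁻¹ = σ * τ := by
    rw [mul_inv_rev, inv_eq_of_mul_eq_one_right hσ, inv_eq_of_mul_eq_one_right hτ, ← mul_assoc,
      hτ, one_mul]
  have h2 : τ * ((σ * τ) ^ (k + 1))⁻¹ = (σ * τ) ^ (k + 1) * τ := by
    rw [← inv_pow]
    conv_rhs => rw [← h1, conj_pow, inv_mul_cancel_right]
  refine ⟨(σ * τ) ^ (k + 1), Subgroup.npow_mem_zpowers _ _, ?_⟩
  rw [mul_assoc, h2, ← mul_assoc, ← pow_add, show k + 1 + (k + 1) = 2 * k + 1 + 1 by ring, ← hk,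
    pow_succ, pow_orderOf_eq_one, one_mul, mul_assoc, hτ, mul_one]

theorem isPrimePow_of_orbit {G X : Type*} [Group G] [Finite G] [MulAction G X] {p : ℕ}
    (hp : p.Prime) {Q : Subgroup G} (hQ : IsPGroup p Q) {z : X} {n : ℕ} (hn : 2 ≤ n)
    (h : (orbit Q z).ncard = n) : IsPrimePow n := by
  haveI : Fact p.Prime := ⟨hp⟩
  haveI : Finite (orbit Q z) := (Set.finite_range _).to_subtype
  obtain ⟨k, hk⟩ := hQ.card_orbit z
  rw [Nat.card_coe_set_eq, h] at hk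
  refine ⟨p, k, hp.prime, Nat.pos_of_ne_zero ?_, hk.symm⟩
  rintro rfl
  rw [pow_zero] at hk
  omega

theorem exists_big_out {X : Type*} {S : Set X} (hS : S.Finite) {n : ℕ} (hn : S.ncard = n + 1)
    (r : X → X → Prop) (h : ∀ a ∈ S, ∀ b ∈ S, a ≠ b → r a b ∨ r b a) :
    ∃ a ∈ S, n ≤ 2 * {b | b ∈ S ∧ b ≠ a ∧ r a b}.ncard := by
  classical
  obtain ⟨s, rfl⟩ := hS.exists_finset_coe
  rw [Set.ncard_coe_finset] at hn
  by_contra! hc
  let r' : X → X → Prop := fun a b => b ≠ a ∧ r a b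
  have h1 := Finset.sum_card_bipartiteAbove_eq_sum_card_bipartiteBelow (s := s) (t := s) r'
  have h2 : ∀ a ∈ s, 2 * (s.bipartiteAbove r' a).card + 1 ≤ n := fun a ha => by
    have := hc a ha
    rwa [show {b | b ∈ (s : Set X) ∧ b ≠ a ∧ r a b} = ↑(s.bipartiteAbove r' a) by
      ext; simp [r'], Set.ncard_coe_finset] at this
  have h3 : ∀ a ∈ s, n ≤ (s.bipartiteAbove r' a).card + (s.bipartiteBelow r' a).card :=
    fun a ha => by
      refine le_trans ?_ (Finset.card_union_le _ _)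
      refine le_trans (le_of_eq ?_) (Finset.card_le_card (s := s.erase a) fun b hb => ?_)
      · rw [Finset.card_erase_of_mem ha, hn]; rfl
      · rw [Finset.mem_erase] at hb
        rcases h a ha b hb.2 hb.1.symm with h4 | h4
        · exact Finset.mem_union_left _ (by simp [r', hb.1, hb.2, h4])
        · exact Finset.mem_union_right _ (by simp [r', hb.1.symm, hb.2, h4])
  have h4 := Finset.sum_le_sum h2
  have h5 := Finset.sum_le_sum h3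
  simp only [Finset.sum_add_distrib, ← Finset.mul_sum, Finset.sum_const, smul_eq_mul, hn] at h4 h5
  omega

namespace Pl

variable {G P L : Type*} [Group G] [MulAction G P] [MulAction G L] (π : Pl G P L)

/-- Involutory homology. -/
structure Hom (σ : G) (c : P) (l : L) : Prop where
  sq : σ * σ = 1
  ne : σ ≠ 1
  cen : π.Cen σ c
  ax : π.Ax σ l
  not : ¬ π.I c l

/-- Perspectivities with centre `c` and axis `l`. -/
def E (c : P) (l : L) : Subgroup G where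
  carrier := {g | π.Cen g c ∧ π.Ax g l}
  one_mem' := ⟨Cen.one c, Cen.one (π := π.dual) l⟩
  mul_mem' h1 h2 := ⟨h1.1.mul h2.1, h1.2.mul h2.2⟩
  inv_mem' h := ⟨h.1.inv, h.2.inv⟩

/-- Elations with axis `l`. -/
def TL (l : L) : Subgroup G where
  carrier := {g | ∃ c, π.I c l ∧ g ∈ π.E c l}
  one_mem' := by
    obtain ⟨c, hc, -⟩ := π.meet l l
    exact ⟨c, hc, one_mem _⟩
  mul_mem' := by
    rintro g h ⟨a, ha, hg⟩ ⟨b, hb, hh⟩
    by_cases hab : a = b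
    · exact ⟨a, ha, mul_mem hg (hab ▸ hh)⟩
    obtain ⟨c, hc⟩ := (hg.2.mul hh.2).exists_cen
    by_cases hcl : π.I c l
    · exact ⟨c, hcl, hc, hg.2.mul hh.2⟩
    by_cases h1 : h • c = c
    · obtain rfl := hh.1.eq_one (hh.2.cen_of_fix h1 hcl) (by rintro rfl; exact hcl hb)
      exact ⟨a, ha, by rwa [mul_one]⟩
    obtain ⟨k, k1, k2⟩ := π.join c a
    obtain ⟨m, m1, m2⟩ := π.join c b
    have h2 : π.I (h • c) k := by
      have := I_smul k1 (hg.1.inv k k2)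
      rwa [show g⁻¹ • c = h • c by rw [inv_smul_eq_iff, ← mul_smul, hc.fix]] at this
    obtain rfl := Inc.line_eq h1 h2 k1 (I_smul m1 (hh.1 m m2)) m1
    exact (hcl (Inc.line_eq hab k2 m2 ha hb ▸ k1)).elim
  inv_mem' := fun ⟨c, hc, h⟩ => ⟨c, hc, inv_mem h⟩

/-- Two different centres of nontrivial elations on `l`. -/
def Bad (l : L) : Prop := ∃ a b g h, a ≠ b ∧ π.I a l ∧ π.I b l ∧ g ∈ π.E a l ∧ h ∈ π.E b l ∧
  g ≠ 1 ∧ h ≠ 1

variable {π}

theorem E_dual {c : P} {l : L} {g : G} : g ∈ π.dual.E l c ↔ g ∈ π.E c l := and_comm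

theorem E_conj {c : P} {l : L} {g : G} (hg : g ∈ π.E c l) (h : G) :
    h * g * h⁻¹ ∈ π.E (h • c) (h • l) := ⟨hg.1.conj h, hg.2.conj h⟩

theorem Hom.dual {σ : G} {c : P} {l : L} (h : π.Hom σ c l) : π.dual.Hom σ l c :=
  ⟨h.sq, h.ne, h.ax, h.cen, h.not⟩

theorem Hom.conj {σ : G} {c : P} {l : L} (h : π.Hom σ c l) (g : G) :
    π.Hom (g * σ * g⁻¹) (g • c) (g • l) :=
  ⟨by rw [conj_mul, h.sq]; simp, by simpa using h.ne, h.cen.conj g, h.ax.conj g,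
    by simpa only [π.smul] using h.not⟩

theorem Hom.inv_eq {σ : G} {c : P} {l : L} (h : π.Hom σ c l) : σ⁻¹ = σ :=
  inv_eq_of_mul_eq_one_right h.sq

theorem Hom.cen_eq {σ : G} {c d : P} {l k : L} (h : π.Hom σ c l) (h' : π.Hom σ d k) : c = d := by
  by_contra hne
  exact h.ne (h.cen.eq_one h'.cen hne)

variable [Finite G]

theorem odd_orderOf (hn : Odd π.n) {c : P} {l : L} {g : G} (h : π.I c l) (hg : g ∈ π.E c l) :
    Odd (orderOf g) := by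
  rw [← Nat.not_even_iff_odd]
  rintro ⟨k, hk⟩
  have h1 := pow_mem hg k
  have h2 := orderOf_pos g
  exact pow_ne_one_of_lt_orderOf (x := g) (n := k) (by omega) (by omega)
    (eq_one_of_invol hn (by rw [← pow_add, ← hk, pow_orderOf_eq_one]) h1.1 h1.2 h)

theorem Hom.mul_mem {σ τ : G} {c d : P} {l : L} (h : π.Hom σ c l) (h' : π.Hom τ d l)
    (hne : c ≠ d) : σ * τ ∈ π.TL l := by
  obtain ⟨e, he⟩ := (h.ax.mul h'.ax).exists_cen
  by_cases hel : π.I e l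
  · exact ⟨e, hel, he, h.ax.mul h'.ax⟩
  have h1 : σ * τ ≠ 1 := fun h1 => by
    obtain rfl : σ = τ := by rw [← h'.inv_eq, eq_inv_iff_mul_eq_one, h1]
    exact hne (h.cen_eq h')
  have h2 : ∀ ρ : G, ρ * (σ * τ) * ρ⁻¹ = (σ * τ)⁻¹ → ρ • e = e := fun ρ hρ => by
    by_contra h3
    have h4 := he.conj ρ
    rw [hρ] at h4
    exact h1 (inv_eq_one.1 (h4.eq_one he.inv h3))
  have e1 := (fix_cases h.cen h.ax h.ne (h2 σ (by
    rw [← mul_assoc, h.sq, one_mul, mul_inv_rev, h'.inv_eq]))).resolve_right hel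
  have e2 := (fix_cases h'.cen h'.ax h'.ne (h2 τ (by
    rw [← mul_assoc, mul_inv_cancel_right, mul_inv_rev, h'.inv_eq, h.inv_eq]))).resolve_right hel
  exact (hne (e1.symm.trans e2)).elim

theorem Hom.exists_zpowers (hn : Odd π.n) {σ τ : G} {c d : P} {l : L} (h : π.Hom σ c l)
    (h' : π.Hom τ d l) : ∃ w ∈ Subgroup.zpowers (σ * τ), w ∈ π.TL l ∧ w • d = c := by
  by_cases hne : c = d
  · exact ⟨1, one_mem _, one_mem _, by rw [one_smul, hne]⟩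
  have h1 := h.mul_mem h' hne
  obtain ⟨e, he, h2⟩ := id h1
  obtain ⟨w, hw, h3⟩ := exists_conj_invol h.sq h'.sq (odd_orderOf hn he h2)
  have h4 := h'.conj w
  rw [h3] at h4
  exact ⟨w, hw, (Subgroup.zpowers_le.2 h1) hw, h4.cen_eq h⟩

theorem Hom.exists_TL (hn : Odd π.n) {σ τ : G} {c d : P} {l : L} (h : π.Hom σ c l)
    (h' : π.Hom τ d l) : ∃ w ∈ π.TL l, w • d = c :=
  let ⟨w, _, h1, h2⟩ := h.exists_zpowers hn h'
  ⟨w, h1, h2⟩

omit [Finite G] in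
theorem commute_E {a b : P} {l : L} (hab : a ≠ b) (ha : π.I a l) (hb : π.I b l) {x y : G}
    (hx : x ∈ π.E a l) (hy : y ∈ π.E b l) : Commute x y := by
  have h1 := hy.1.conj x
  have h2 := hx.1.inv.conj y
  rw [hy.2 a ha] at h2
  rw [hx.2 b hb] at h1
  rw [← commutatorElement_eq_one_iff_commute]
  refine Cen.eq_one (h1.mul hy.1.inv) ?_ hab.symm
  simpa only [mul_assoc, commutatorElement_def] using hx.1.mul h2

omit [Finite G] in
theorem pow_eq_one_E {a b : P} {l : L} (hab : a ≠ b) (ha : π.I a l) (hb : π.I b l) {x y : G}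
    (hx : x ∈ π.E a l) (hy : y ∈ π.E b l) (hx1 : x ≠ 1) {p : ℕ} (hp : x ^ p = 1) : y ^ p = 1 := by
  obtain ⟨c, -, hc⟩ := (π.TL l).mul_mem ⟨a, ha, hx⟩ ⟨b, hb, hy⟩
  by_cases hcb : c = b
  · subst hcb
    have := hc.1.mul hy.1.inv
    rw [mul_inv_cancel_right] at this
    exact (hx1 (hx.1.eq_one this hab)).elim
  have h1 := pow_mem hc p
  rw [(commute_E hab ha hb hx hy).mul_pow, hp, one_mul] at h1
  exact h1.1.eq_one (pow_mem hy p).1 hcb

theorem Bad.pgroup {l : L} (h : π.Bad l) : ∃ p : ℕ, p.Prime ∧ IsPGroup p (π.TL l) := by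
  obtain ⟨a, b, g, h, hab, ha, hb, hg, hh, hg1, hh1⟩ := h
  obtain ⟨p, hp, hd⟩ := Nat.exists_prime_and_dvd (n := orderOf g) (by simpa using hg1)
  have h1 := pow_mem hg (orderOf g / p)
  have h2 : g ^ (orderOf g / p) ≠ 1 :=
    pow_ne_one_of_lt_orderOf (Nat.div_pos (Nat.le_of_dvd (orderOf_pos g) hd) hp.pos).ne'
      (Nat.div_lt_self (orderOf_pos g) hp.one_lt)
  have h3 : (g ^ (orderOf g / p)) ^ p = 1 := by
    rw [← pow_mul, Nat.div_mul_cancel hd, pow_orderOf_eq_one]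
  refine ⟨p, hp, fun ⟨y, c, hc, hy⟩ => ⟨1, Subtype.ext ?_⟩⟩
  rw [pow_one]
  by_cases hca : a = c
  · subst hca
    exact pow_eq_one_E hab.symm hb ha hh hy hh1 (pow_eq_one_E hab ha hb h1 hh h2 h3)
  · exact pow_eq_one_E hca ha hc h1 hy h2 h3

theorem isPrimePow_of_trans {p : ℕ} (hp : p.Prime) {Q : Subgroup G} (hQ : IsPGroup p Q) {a : P}
    {k : L} (ha : π.I a k) (hc : ∀ q ∈ Q, π.Cen q a) {z : P} (hz : π.I z k) (hza : z ≠ a)
    (h : ∀ y, π.I y k → y ≠ a → ∃ q ∈ Q, q • z = y) : IsPrimePow π.n := by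
  refine isPrimePow_of_orbit hp hQ (z := z) π.two_le ?_
  rw [← π.ncard_diff ha]
  congr 1
  ext y
  constructor
  · rintro ⟨q, rfl⟩
    refine ⟨I_smul hz (hc q q.2 k ha), fun h1 => hza ?_⟩
    exact MulAction.injective (q : G) (Eq.trans h1 (hc q q.2).fix.symm)
  · intro hy
    obtain ⟨q, hq, rfl⟩ := h y hy.1 hy.2
    exact ⟨⟨q, hq⟩, rfl⟩

theorem exists_decomp (hn : Odd π.n) {τ : G} {b b' : P} {k l : L} (hτ : π.Hom τ b k)
    (hb : π.I b l) (h1 : π.I b' l) (h2 : π.I b' k) {t : G} (ht : t ∈ π.TL l) :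
    ∃ w ∈ π.E b l, w⁻¹ * t ∈ π.E b' l := by
  obtain ⟨c, hc, htc⟩ := id ht
  have h3 := hτ.conj t
  rw [htc.2 b hb] at h3
  obtain ⟨w, hw, -, hwk⟩ := h3.dual.exists_zpowers (π := π.dual) hn hτ.dual
  have h4 : t * τ * t⁻¹ * τ ∈ π.E b l := by
    refine ⟨h3.cen.mul hτ.cen, ?_⟩
    have := htc.2.mul (hτ.cen l hb ▸ htc.2.inv.conj τ)
    rwa [hτ.inv_eq, ← mul_assoc, ← mul_assoc] at this
  have h5 := Subgroup.zpowers_le.2 h4 hw
  refine ⟨w, h5, ?_⟩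
  obtain ⟨e, he, h6⟩ := (π.TL l).mul_mem (inv_mem ⟨b, hb, h5⟩) ht
  by_cases h7 : w⁻¹ * t = 1
  · exact h7 ▸ one_mem _
  have hkl : k ≠ l := by rintro rfl; exact hτ.not hb
  have h8 := (fix_cases' h6.1 h6.2 h7 (k := k) (by rw [mul_smul, ← hwk, inv_smul_smul])).resolve_left
    hkl
  exact Inc.pt_eq hkl h8 h2 he h1 ▸ h6

theorem caseB1 (hn : Odd π.n) (hc : ∀ b, ∃ τ k, π.Hom τ b k) {l : L} (h : π.Bad l) :
    IsPrimePow π.n := by
  haveI := π.finP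
  obtain ⟨p, hp, hT⟩ := h.pgroup
  obtain ⟨a₁, a₂, g₁, g₂, h12, ha₁, ha₂, hg₁, hg₂, n₁, n₂⟩ := h
  obtain ⟨b₀, hb₀, hmax⟩ := Set.exists_max_image {b | π.I b l} (fun b => Nat.card (π.E b l))
    (Set.toFinite _) ⟨a₁, ha₁⟩
  have key : ∀ b, π.I b l → b ≠ b₀ → ∀ t ∈ π.TL l, ∃ u ∈ π.E b l, ∃ w ∈ π.E b₀ l, u * w = t := by
    intro b hb hne t ht
    obtain ⟨τ, k, hτ⟩ := hc b
    obtain ⟨b', h1, h2⟩ := π.meet l k
    let f : π.E b l × π.E b' l → π.TL l := fun x => ⟨x.1 * x.2, mul_mem ⟨b, hb, x.1.2⟩ ⟨b', h1, x.2.2⟩⟩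
    let f₀ : π.E b l × π.E b₀ l → π.TL l :=
      fun x => ⟨x.1 * x.2, mul_mem ⟨b, hb, x.1.2⟩ ⟨b₀, hb₀, x.2.2⟩⟩
    have hf : Function.Surjective f := fun t => by
      obtain ⟨w, hw, h3⟩ := exists_decomp hn hτ hb h1 h2 t.2
      exact ⟨(⟨w, hw⟩, ⟨_, h3⟩), Subtype.ext (mul_inv_cancel_left _ _)⟩
    have hf₀ : Function.Injective f₀ := fun x y hxy => by
      have e : (x.1 : G) * x.2 = y.1 * y.2 := congrArg Subtype.val hxy
      have e1 : (y.1 : G)⁻¹ * x.1 = y.2 * (x.2 : G)⁻¹ := by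
        rw [inv_mul_eq_iff_eq_mul, ← mul_assoc, ← e, mul_inv_cancel_right]
      have e2 := (mul_mem (inv_mem y.1.2) x.1.2).1.eq_one (e1 ▸ (mul_mem y.2.2 (inv_mem x.2.2)).1) hne
      refine Prod.ext (Subtype.ext (inv_mul_eq_one.1 e2).symm) (Subtype.ext ?_)
      exact (mul_inv_eq_one.1 (e1 ▸ e2)).symm
    have := hf₀.bijective_of_nat_card_le ((Nat.card_le_card_of_surjective f hf).trans (by
      rw [Nat.card_prod, Nat.card_prod]
      exact Nat.mul_le_mul_left _ (hmax b' h1)))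
    obtain ⟨x, hx⟩ := this.2 ⟨t, ht⟩
    exact ⟨_, x.1.2, _, x.2.2, congrArg Subtype.val hx⟩
  obtain ⟨a, h, ha, hab, hh, hh1⟩ : ∃ a h, π.I a l ∧ a ≠ b₀ ∧ h ∈ π.E a l ∧ h ≠ 1 := by
    by_cases h : a₁ = b₀
    · exact ⟨a₂, g₂, ha₂, fun h' => h12 (h.trans h'.symm), hg₂, n₂⟩
    · exact ⟨a₁, g₁, ha₁, h, hg₁, n₁⟩
  obtain ⟨z, hz⟩ := π.exists_not l
  obtain ⟨k, k1, k2⟩ := π.join z b₀
  have hkl : k ≠ l := by rintro rfl; exact hz k1
  have hza : z ≠ a := by rintro rfl; exact hz ha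
  have hzb : z ≠ b₀ := by rintro rfl; exact hz hb₀
  have hhz : ¬ π.I (h • z) k := fun h1 => by
    have h2 := fix_line' hzb k1 k2 h1 ((hh.2 b₀ hb₀).symm ▸ k2)
    exact hab (Inc.pt_eq hkl ((fix_cases' hh.1 hh.2 hh1 h2).resolve_left hkl) k2 ha hb₀)
  refine isPrimePow_of_trans hp (hT.to_le (H := π.E b₀ l) fun g hg => ⟨b₀, hb₀, hg⟩) k2
    (fun q hq => hq.1) k1 hzb fun y hy hyb => ?_
  obtain ⟨m, m1, m2⟩ := π.join y (h • z)
  obtain ⟨b, b1, b2⟩ := π.meet m l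
  have hmk : m ≠ k := by rintro rfl; exact hhz m2
  have hbb : b ≠ b₀ := by rintro rfl; exact hyb (Inc.pt_eq hmk m1 b1 hy k2)
  obtain ⟨u, hu, w, hw, e⟩ := key b b2 hbb h ⟨a, ha, hh⟩
  refine ⟨w, hw, Inc.pt_eq hmk ?_ m1 (I_smul k1 (hw.1 k k2)) hy⟩
  have := I_smul m2 (hu.1.inv m b1)
  rwa [← e, mul_smul, inv_smul_smul] at this

omit [Finite G] in
theorem eq_of_not_bad {l : L} (h : ¬ π.Bad l) {a b : P} {g k : G} (ha : π.I a l) (hb : π.I b l)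
    (hg : g ∈ π.E a l) (hk : k ∈ π.E b l) (hg1 : g ≠ 1) : k ∈ π.E a l := by
  by_cases h1 : k = 1
  · exact h1 ▸ one_mem _
  by_cases hab : a = b
  · exact hab ▸ hk
  exact (h ⟨a, b, g, k, hab, ha, hb, hg, hk, hg1, h1⟩).elim

omit [Finite G] in
theorem fix_of_not_bad {l : L} (h : ¬ π.Bad l) {a : P} {g k : G} (ha : π.I a l)
    (hg : g ∈ π.E a l) (hg1 : g ≠ 1) (hk : k • l = l) : k • a = a := by
  by_contra hne
  exact h ⟨_, a, _, g, hne, I_smul ha hk, ha, hk ▸ E_conj hg k, hg, by simpa using hg1, hg1⟩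

theorem caseB2 (hn : Odd π.n) (hc : ∀ b, ∃ τ k, π.Hom τ b k) {a : P} {l : L} (h : ¬ π.Bad l)
    (h' : ¬ π.dual.Bad a) (ha : π.I a l) {g : G} (hg : g ∈ π.E a l) : g = 1 := by
  by_contra hg1
  obtain ⟨σ, k, hσ⟩ := hc a
  obtain ⟨d, d1, d2⟩ := π.meet k l
  obtain ⟨b, hb, hba, hbd⟩ := π.exists_pt l a d
  obtain ⟨τ, m, hτ⟩ := hc b
  have f1 := hτ.cen l hb
  have f2 := fix_of_not_bad h ha hg hg1 f1
  have h1 := hσ.conj τ
  rw [f2] at h1
  obtain ⟨w, ⟨j, hj, hw⟩, hwk⟩ := h1.dual.exists_TL (π := π.dual) hn hσ.dual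
  have h2 := E_dual.1 (eq_of_not_bad h' ha hj (E_dual.2 hg) hw hg1)
  have f3 : τ • d = d := by
    refine Inc.pt_eq (l := τ • k) (k := l) ?_ ((π.smul _ _ _).2 d1) ?_ (I_smul d2 f1) d2
    · rintro h3
      exact h1.not (h3 ▸ ha)
    · exact hwk ▸ I_smul' d1 (h2.2 d d2)
  have had : a ≠ d := by rintro rfl; exact hσ.not d1
  exact hτ.not (Inc.line_eq had ha d2 ((fix_cases hτ.cen hτ.ax hτ.ne f2).resolve_left hba.symm)
    ((fix_cases hτ.cen hτ.ax hτ.ne f3).resolve_left hbd.symm) ▸ hb)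

omit [Finite G] in
theorem no_polarity (f : P → L) (hf : Function.Bijective f) (hs : ∀ a c, π.I a (f c) → π.I c (f a))
    (hn : ∀ a, ¬ π.I a (f a)) : False := by
  classical
  haveI := π.finP
  haveI := Fintype.ofFinite P
  obtain ⟨p, hp, hd⟩ := Nat.exists_prime_and_dvd (n := π.n) (by have := π.two_le; omega)
  haveI : Fact p.Prime := ⟨hp⟩
  have hn0 : (π.n : ZMod p) = 0 := (ZMod.natCast_eq_zero_iff _ _).2 hd
  let A : Matrix P P (ZMod p) := Matrix.of fun a c => if π.I a (f c) then 1 else 0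
  let J : Matrix P P (ZMod p) := Matrix.of fun _ _ => 1
  have hrow : ∀ a, (Finset.univ.filter fun c => π.I c (f a)).card = π.n + 1 := fun a => by
    rw [← π.cardL (f a), ← Set.ncard_coe_finset]
    congr 1
    ext; simp
  have h1 : A * A = J := by
    ext a c
    have : ∀ b, A a b * A b c = if π.I b (f a) ∧ π.I b (f c) then 1 else 0 := fun b => by
      simp only [A, Matrix.of_apply, show π.I a (f b) ↔ π.I b (f a) from ⟨hs _ _, hs _ _⟩]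
      split_ifs <;> simp_all
    simp only [Matrix.mul_apply, this, Finset.sum_boole, J, Matrix.of_apply]
    by_cases hac : a = c
    · subst hac
      simp [hrow, hn0]
    · obtain ⟨b, b1, b2⟩ := π.meet (f a) (f c)
      rw [Finset.card_eq_one.2 ⟨b, ?_⟩, Nat.cast_one]
      ext x
      simp only [Finset.mem_filter, Finset.mem_univ, true_and, Finset.mem_singleton]
      exact ⟨fun hx => Inc.pt_eq (hf.1.ne hac) hx.1 b1 hx.2 b2, fun hx => hx ▸ ⟨b1, b2⟩⟩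
  have h2 : A * J = J := by
    ext a c
    simp only [Matrix.mul_apply, A, J, Matrix.of_apply, mul_one, Finset.sum_boole,
      show ∀ b, π.I a (f b) ↔ π.I b (f a) from fun b => ⟨hs _ _, hs _ _⟩, hrow]
    simp [hn0]
  have h3 : ∀ k, A ^ (k + 2) = J := fun k => by
    induction k with
    | zero => rw [zero_add, pow_two, h1]
    | succ k ih => rw [add_right_comm, pow_succ', ih, h2]
  have h4 := ZMod.trace_pow_card A
  obtain ⟨k, hk⟩ : ∃ k, p = k + 2 := ⟨p - 2, by have := hp.two_le; omega⟩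
  have h5 : A ^ p = J := hk ▸ h3 k
  have h6 : A.trace = 0 := by simp [Matrix.trace, A, hn]
  have h7 : J.trace = 1 := by
    simp only [Matrix.trace, Matrix.diag, J, Matrix.of_apply, Finset.sum_const, Finset.card_univ,
      nsmul_eq_mul, mul_one, ← Nat.card_eq_fintype_card, π.cP]
    simp [hn0]
  rw [h5, h6, h7, zero_pow hp.ne_zero] at h4
  exact one_ne_zero h4

theorem caseB (hn : Odd π.n) (hc : ∀ b, ∃ τ k, π.Hom τ b k) (hc' : ∀ k, ∃ τ b, π.Hom τ b k) :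
    IsPrimePow π.n := by
  by_cases h1 : ∃ l, π.Bad l
  · obtain ⟨l, h⟩ := h1
    exact caseB1 hn hc h
  by_cases h2 : ∃ a, π.dual.Bad a
  · obtain ⟨a, h⟩ := h2
    refine caseB1 (π := π.dual) hn (fun k => ?_) h
    obtain ⟨τ, b, h⟩ := hc' k
    exact ⟨τ, b, h.dual⟩
  push Not at h1 h2
  exfalso
  have u1 : ∀ {σ τ c d l}, π.Hom σ c l → π.Hom τ d l → c = d := fun h h' => by
    obtain ⟨w, ⟨e, he, hw⟩, rfl⟩ := h.exists_TL hn h'
    rw [caseB2 hn hc (h1 _) (h2 _) he hw, one_smul]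
  have u2 : ∀ {σ τ c l k}, π.Hom σ c l → π.Hom τ c k → l = k := fun h h' => by
    obtain ⟨w, ⟨e, he, hw⟩, rfl⟩ := h.dual.exists_TL (π := π.dual) hn h'.dual
    rw [caseB2 hn hc (h1 _) (h2 _) he (E_dual.1 hw), one_smul]
  choose s f hf using hc
  have hi : Function.Injective f := fun a b hab => u1 (hf a) (hab ▸ hf b)
  refine no_polarity (π := π) f ⟨hi, fun k => ?_⟩ (fun a c h => ?_) fun a => (hf a).not
  · obtain ⟨τ, b, h⟩ := hc' k
    exact ⟨b, u2 (hf b) h⟩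
  · have h3 := (hf a).conj (s c)
    rw [(hf c).ax a h] at h3
    refine (fix_cases' (hf c).cen (hf c).ax (hf c).ne (u2 h3 (hf a))).resolve_left fun h4 => ?_
    exact (hf a).not (h4 ▸ h)

/-- Every pair of points is fixed by an involutory homology. -/
def Cov (π : Pl G P L) : Prop :=
  ∀ a b : P, a ≠ b → ∃ σ c k, π.Hom σ c k ∧ σ • a = a ∧ σ • b = b

omit [Finite G] in
theorem Cov.cases (h : π.Cov) {l : L} (hl : ∀ σ c, ¬ π.Hom σ c l) {a b : P} (hab : a ≠ b)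
    (ha : π.I a l) (hb : π.I b l) :
    (∃ σ k, π.Hom σ a k ∧ π.I b k) ∨ (∃ σ k, π.Hom σ b k ∧ π.I a k) := by
  obtain ⟨σ, c, k, hσ, h1, h2⟩ := h a b hab
  rcases fix_cases hσ.cen hσ.ax hσ.ne h1 with rfl | h3
  · exact Or.inl ⟨σ, k, hσ, (fix_cases hσ.cen hσ.ax hσ.ne h2).resolve_left hab.symm⟩
  rcases fix_cases hσ.cen hσ.ax hσ.ne h2 with rfl | h4
  · exact Or.inr ⟨σ, k, hσ, h3⟩
  exact (hl σ c (Inc.line_eq hab h3 h4 ha hb ▸ hσ)).elim

theorem Cov.exists_trans (hn : Odd π.n) (h : π.Cov) {l : L} (hl : ∀ σ c, ¬ π.Hom σ c l) :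
    ∃ a z σ k, π.I a l ∧ π.I z l ∧ z ≠ a ∧ π.Hom σ a k ∧
      ∀ y, π.I y l → y ≠ a → ∃ q ∈ π.dual.TL a, q • z = y := by
  haveI := π.finP
  obtain ⟨a, ha, h1⟩ := exists_big_out (Set.toFinite _) (π.cardL l)
    (fun a b => ∃ σ k, π.Hom σ a k ∧ π.I b k) fun a ha b hb hab => h.cases hl hab ha hb
  have h2 := π.two_le
  obtain ⟨z, hz, hza, σ, k, hσ, hzk⟩ := Set.nonempty_of_ncard_ne_zero (s := {b | b ∈ {a | π.I a l} ∧
    b ≠ a ∧ ∃ σ k, π.Hom σ a k ∧ π.I b k}) (by omega)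
  refine ⟨a, z, σ, k, ha, hz, hza, hσ, fun y hy hya => ?_⟩
  have hc : ∀ q : π.dual.TL a, π.Cen q a := fun ⟨_, _, _, hq⟩ => hq.2
  have h3 : {b | b ∈ {a | π.I a l} ∧ b ≠ a ∧ ∃ σ k, π.Hom σ a k ∧ π.I b k} ⊆
      orbit (π.dual.TL a) z := by
    rintro b ⟨hb, hba, τ, m, hτ, hbm⟩
    obtain ⟨w, hw, hwk⟩ := hτ.dual.exists_TL (π := π.dual) hn hσ.dual
    refine ⟨⟨w, hw⟩, Inc.pt_eq (l := m) (k := l) ?_ (hwk ▸ (π.smul _ _ _).2 hzk) hbm
      (I_smul hz (hc ⟨w, hw⟩ l ha)) hb⟩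
    rintro rfl
    exact hτ.not ha
  have h4 : ∀ b, π.I b l → b ≠ a → orbit (π.dual.TL a) b ⊆ {b | π.I b l} \ {a} := by
    rintro b hb hba _ ⟨q, rfl⟩
    exact ⟨I_smul hb (hc q l ha), fun h1 =>
      hba (MulAction.injective (q : G) (Eq.trans h1 (hc q).fix.symm))⟩
  have h5 : ∀ b c, π.I b l → b ≠ a → π.I c l → stabilizer (π.dual.TL a) b ≤
      stabilizer (π.dual.TL a) c := by
    rintro b c hb hba hcl ⟨q, m, hm, hq⟩ hqb
    by_cases hq1 : q = 1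
    · subst hq1
      exact one_smul G c
    exact hq.1 c (Inc.line_eq hba hb ha ((fix_cases hq.2 hq.1 hq1 hqb).resolve_left hba) hm ▸ hcl)
  by_contra! hy'
  have h6 : Disjoint (orbit (π.dual.TL a) z) (orbit (π.dual.TL a) y) := by
    refine (orbit.eq_or_disjoint z y).resolve_left fun h => ?_
    obtain ⟨q, hq⟩ : y ∈ orbit (π.dual.TL a) z := h ▸ mem_orbit_self y
    exact hy' q q.2 hq
  have h7 := Set.ncard_le_ncard (Set.union_subset (h4 z hz hza) (h4 y hy hya))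
  rw [Set.ncard_union_eq h6, π.ncard_diff ha, ← index_stabilizer, ← index_stabilizer,
    le_antisymm (h5 y z hy hya hz) (h5 z y hz hza hy), index_stabilizer] at h7
  have h8 := Set.ncard_le_ncard h3
  obtain ⟨j, hj⟩ := hn
  omega

theorem caseA (hn : Odd π.n) (h : π.Cov) {l : L} (hl : ∀ σ c, ¬ π.Hom σ c l) :
    IsPrimePow π.n := by
  obtain ⟨a, z, σ, k, ha, hz, hza, hσ, ht⟩ := h.exists_trans hn hl
  by_cases hb : π.dual.Bad a
  · obtain ⟨p, hp, hT⟩ := hb.pgroup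
    exact isPrimePow_of_trans hp hT ha (fun _ ⟨_, _, hq⟩ => hq.2) hz hza ht
  obtain ⟨y, hy, hya, hyz⟩ := π.exists_pt l a z
  obtain ⟨g, ⟨m, hm, hg⟩, hgz⟩ := ht y hy hya
  have hg1 : g ≠ 1 := by rintro rfl; exact hyz (hgz ▸ one_smul G z)
  have hml : m ≠ l := by rintro rfl; exact hyz (hgz ▸ hg.1 z hz)
  replace ht : ∀ y, π.I y l → y ≠ a → ∃ q ∈ π.E a m, q • z = y := fun y hy hya => by
    obtain ⟨q, ⟨j, hj, hq⟩, h1⟩ := ht y hy hya
    exact ⟨q, E_dual.1 (eq_of_not_bad hb hm hj hg hq hg1), h1⟩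
  by_cases hb' : π.Bad m
  · obtain ⟨p, hp, hT⟩ := hb'.pgroup
    exact isPrimePow_of_trans hp (hT.to_le (H := π.E a m) fun g hg => ⟨a, hm, hg⟩) ha
      (fun _ hq => hq.1) hz hza ht
  exfalso
  have fm : ∀ {ρ : G}, ρ • a = a → ρ • m = m := fun hρ => fix_of_not_bad hb hm hg hg1 hρ
  have ax : ∀ b, ¬ π.I b m → ∃ ρ j, π.Hom ρ a j ∧ π.I b j := by
    intro b hbm
    obtain ⟨j, j1, j2⟩ := π.join a b
    obtain ⟨u, u1, u2⟩ := π.meet j k
    obtain ⟨e, he, hea, -⟩ := π.exists_pt m a a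
    have hjm : j ≠ m := by rintro rfl; exact hbm j2
    have pr : ∀ v, π.I v j → v ≠ a → ∃ i, ∃ q ∈ π.E a m, π.I e i ∧ π.I v i ∧ π.I (q • z) i := by
      intro v hv hva
      obtain ⟨i, i1, i2⟩ := π.join e v
      obtain ⟨x, x1, x2⟩ := π.meet i l
      obtain ⟨q, hq, rfl⟩ := ht x x2 (by
        rintro rfl
        exact hva (Inc.pt_eq hjm hv j1 (Inc.line_eq hea i1 x1 he hm ▸ i2) hm))
      exact ⟨i, q, hq, i1, i2, x1⟩
    obtain ⟨i, q, hq, i1, i2, i3⟩ := pr u u1 (by rintro rfl; exact hσ.not u2)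
    obtain ⟨i', q', hq', i1', i2', i3'⟩ := pr b j2 (by rintro rfl; exact hbm hm)
    have hr := mul_mem hq' (inv_mem hq)
    have hne : e ≠ q' • z := by
      intro h1
      have h2 : π.I (q' • z) l := I_smul hz (hq'.1 l ha)
      exact hea (Inc.pt_eq hml he hm (h1 ▸ h2) ha)
    have h1 : (q' * q⁻¹) • i = i' := by
      refine Inc.line_eq hne (I_smul' i1 (hr.2 e he)) ?_ i1' i3'
      have := (π.smul (q' * q⁻¹) _ _).2 i3
      rwa [mul_smul, inv_smul_smul] at this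
    have h2 : (q' * q⁻¹) • u = b := by
      refine Inc.pt_eq (l := i') (k := j) ?_ (h1 ▸ (π.smul _ _ _).2 i2) i2'
        (I_smul u1 (hr.1 j j1)) j2
      rintro rfl
      exact hea (Inc.pt_eq hjm i1' j1 he hm)
    have h3 := hσ.conj (q' * q⁻¹)
    rw [hr.1.fix] at h3
    exact ⟨_, _, h3, h2 ▸ (π.smul _ _ _).2 u2⟩
  have K : ∀ j, π.I a j → j ≠ m → (∀ σ c, ¬ π.Hom σ c j) →
      ∃ b τ, π.I b j ∧ b ≠ a ∧ π.Hom τ b m := by
    intro j hj hjm hnj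
    obtain ⟨b₁, ρ, i, h1, h2, h3, h4⟩ : ∃ b₁ ρ i, π.I b₁ j ∧ b₁ ≠ a ∧ π.Hom ρ b₁ i ∧ ¬ π.I a i := by
      obtain ⟨b₁, h1, h2, -⟩ := π.exists_pt j a a
      obtain ⟨b₂, h3, h4, h5⟩ := π.exists_pt j a b₁
      rcases h.cases hnj h5 h3 h1 with ⟨ρ, i, h6, h7⟩ | ⟨ρ, i, h6, h7⟩
      · exact ⟨b₂, ρ, i, h3, h4, h6, fun h8 => hnj ρ b₂ (Inc.line_eq h2 h7 h8 h1 hj ▸ h6)⟩
      · exact ⟨b₁, ρ, i, h1, h2, h6, fun h8 => hnj ρ b₁ (Inc.line_eq h4 h7 h8 h3 hj ▸ h6)⟩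
    have h5 : ρ • a ≠ a := fun h5 => (fix_cases h3.cen h3.ax h3.ne h5).elim h2.symm h4
    have h6 : π.I (ρ • a) j := I_smul hj (h3.cen j h1)
    have h7 : ¬ π.I (ρ • a) m := fun h7 => h5 (Inc.pt_eq hjm h6 hj h7 hm)
    obtain ⟨τ, i', hτ, h8⟩ := ax _ h7
    have h9 := hτ.conj ρ
    have h10 := (π.smul ρ _ _).2 h8
    rw [← mul_smul, h3.sq, one_smul] at h10
    refine ⟨_, ρ * τ * ρ⁻¹, h6, h5, ?_⟩
    rwa [(fix_cases' h9.cen h9.ax h9.ne (fm (h9.ax a h10))).resolve_right h7]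
  obtain ⟨b, τ, hbl, hba, hτ⟩ := K l ha hml.symm hl
  have C : ∀ {c τ'}, π.Hom τ' c m → π.I c l := fun h => by
    obtain ⟨w, ⟨e, he, hw⟩, rfl⟩ := h.exists_TL hn hτ
    exact I_smul hbl ((eq_of_not_bad hb' hm he (E_dual.1 hg) hw hg1).1 l ha)
  obtain ⟨j, hj, hjm, hjl⟩ := π.exists_ln a m l
  by_cases hnj : ∀ σ c, ¬ π.Hom σ c j
  · obtain ⟨c, ρ, h1, h2, h3⟩ := K j hj hjm hnj
    exact hjl (Inc.line_eq h2 h1 hj (C h3) ha)
  push Not at hnj
  obtain ⟨ρ, c, hρ⟩ := hnj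
  have f1 := hρ.ax a hj
  have f2 := fm f1
  have h1 := hτ.conj ρ
  rw [f2] at h1
  have f3 := fix_line' hba hbl ha (C h1) (f1.symm ▸ ha)
  exact hρ.not (Inc.pt_eq hml hm ((fix_cases' hρ.cen hρ.ax hρ.ne f2).resolve_left hjm.symm) ha
    ((fix_cases' hρ.cen hρ.ax hρ.ne f3).resolve_left hjl.symm) ▸ hj)

theorem isPrimePow_of_cov (hn : Odd π.n) (h : π.Cov) (h' : π.dual.Cov) : IsPrimePow π.n := by
  by_cases h1 : ∃ l, ∀ σ c, ¬ π.Hom σ c l
  · obtain ⟨l, hl⟩ := h1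
    exact caseA hn h hl
  by_cases h2 : ∃ a, ∀ σ k, ¬ π.dual.Hom σ k a
  · obtain ⟨l, hl⟩ := h2
    exact caseA (π := π.dual) hn h' hl
  push Not at h1 h2
  refine caseB hn (fun b => ?_) h1
  obtain ⟨σ, k, h⟩ := h2 b
  exact ⟨σ, k, h.dual⟩

end Pl

end H81
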