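import Mathlib
import Cfsg.Agent.Base
import Cfsg.Agent.Lib.H81.Central

/-! Symmetric designs with a 2-transitive automorphism group. -/

set_option autoImplicit false

namespace H81

open MulAction Matrix Finset

/-- Invariant matrices. -/
def MInv (G : Type*) {α β : Type*} [Group G] [MulAction G α] [MulAction G β]
    (M : Matrix α β ℚ) : Prop := ∀ (g : G) a b, M (g • a) (g • b) = M a b

theorem MInv.mul {G α β γ : Type*} [Group G] [MulAction G α] [MulAction G β] [MulAction G γ]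
    [Fintype β] {M : Matrix α β ℚ} {N : Matrix β γ ℚ} (hM : MInv G M) (hN : MInv G N) :
    MInv G (M * N) := fun g a c => by
  simp only [Matrix.mul_apply]
  rw [← Equiv.sum_comp (MulAction.toPerm g)]
  exact Finset.sum_congr rfl fun b _ => by
    rw [MulAction.toPerm_apply, hM, hN]

theorem MInv.transpose {G α β : Type*} [Group G] [MulAction G α] [MulAction G β]
    {M : Matrix α β ℚ} (hM : MInv G M) : MInv G Mᵀ := fun g a b => hM g b a

theorem trans_of_two {G X : Type*} [Group G] [MulAction G X]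
    (two : ∀ {x y u v : X}, x ≠ y → u ≠ v → ∃ g : G, g • x = u ∧ g • y = v) (x u : X) :
    ∃ g : G, g • x = u := by
  by_cases h : x = u
  · exact ⟨1, by rw [one_smul, h]⟩
  · obtain ⟨g, h1, -⟩ := two h (Ne.symm h)
    exact ⟨g, h1⟩

theorem MInv.eq_of_two {G X : Type*} [Group G] [MulAction G X] [DecidableEq X]
    (two : ∀ {x y u v : X}, x ≠ y → u ≠ v → ∃ g : G, g • x = u ∧ g • y = v) {x y : X}
    (h : x ≠ y) {M : Matrix X X ℚ} (hM : MInv G M) :
    M = (M x x - M x y) • (1 : Matrix X X ℚ) + M x y • Matrix.of fun _ _ => (1 : ℚ) := by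
  ext u v
  by_cases huv : u = v
  · subst huv
    obtain ⟨g, rfl⟩ := trans_of_two two x u
    simp [hM g x x]
  · obtain ⟨g, rfl, rfl⟩ := two h huv
    simp [hM g x y, Matrix.one_apply_ne huv]

/-- A 2-transitive symmetric design. -/
structure SymD (G Ω Y : Type*) [Group G] [MulAction G Ω] [MulAction G Y] where
  I : Ω → Y → Prop
  smul : ∀ (g : G) a y, I (g • a) (g • y) ↔ I a y
  two : ∀ {x y u v : Ω}, x ≠ y → u ≠ v → ∃ g : G, g • x = u ∧ g • y = v
  card : Nat.card Ω = Nat.card Y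
  nontriv : ∃ a b y, I a y ∧ ¬ I b y

namespace SymD

variable {G Ω Y : Type*} [Group G] [MulAction G Ω] [MulAction G Y] (D : SymD G Ω Y)

open Classical in
/-- The incidence matrix. -/
noncomputable def A : Matrix Ω Y ℚ := Matrix.of fun a y => if D.I a y then 1 else 0

open Classical in
theorem inv_A : MInv G D.A := fun g a y => if_congr (D.smul g a y) rfl rfl

variable [Fintype Ω] [Fintype Y] [DecidableEq Ω] [DecidableEq Y]

theorem exists_gram : ∃ s t : ℚ, 0 < s ∧ 0 ≤ t ∧
    D.A * D.Aᵀ = s • (1 : Matrix Ω Ω ℚ) + t • Matrix.of fun _ _ => (1 : ℚ) := by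
  classical
  obtain ⟨a, b, y, h1, h2⟩ := D.nontriv
  have hab : a ≠ b := by rintro rfl; exact h2 h1
  refine ⟨_, _, ?_, ?_, MInv.eq_of_two D.two hab (D.inv_A.mul D.inv_A.transpose)⟩
  · simp only [Matrix.mul_apply, Matrix.transpose_apply, sub_pos]
    refine Finset.sum_lt_sum (fun z _ => ?_) ⟨y, Finset.mem_univ _, by simp [A, h1, h2]⟩
    simp only [A, Matrix.of_apply]
    split_ifs <;> norm_num
  · simp only [Matrix.mul_apply, Matrix.transpose_apply]
    refine Finset.sum_nonneg fun z _ => ?_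
    simp only [A, Matrix.of_apply]
    split_ifs <;> norm_num

theorem exists_inv : ∃ B : Matrix Y Ω ℚ, D.A * B = 1 ∧ B * D.A = 1 := by
  obtain ⟨s, t, hs, ht, h⟩ := D.exists_gram
  have hJ : (Matrix.of fun _ _ => (1 : ℚ) : Matrix Ω Ω ℚ) * (Matrix.of fun _ _ => (1 : ℚ)) =
      (Fintype.card Ω : ℚ) • (Matrix.of fun _ _ => (1 : ℚ) : Matrix Ω Ω ℚ) := by
    ext; simp [Matrix.mul_apply]
  have hp : 0 < s + t * Fintype.card Ω := by positivity
  have h1 : D.A * (D.Aᵀ * (s⁻¹ • (1 : Matrix Ω Ω ℚ) - (t / (s * (s + t * Fintype.card Ω))) •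
      Matrix.of fun _ _ => (1 : ℚ))) = 1 := by
    rw [← Matrix.mul_assoc, h]
    simp only [Matrix.mul_sub, Matrix.add_mul, Matrix.mul_smul, Matrix.smul_mul, Matrix.mul_one,
      Matrix.one_mul, hJ]
    ext i j
    simp only [Matrix.sub_apply, Matrix.add_apply, Matrix.smul_apply, Matrix.of_apply,
      smul_eq_mul]
    field_simp
    ring
  refine ⟨_, h1, (Matrix.mul_eq_one_comm_of_equiv (Fintype.equivOfCardEq ?_)).1 h1⟩
  simpa [Nat.card_eq_fintype_card] using D.card

theorem inj {y z : Y} (h : ∀ a, D.I a y ↔ D.I a z) : y = z := by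
  classical
  obtain ⟨B, -, hB⟩ := D.exists_inv
  by_contra hne
  have h1 := congrFun (congrFun hB y) y
  have h2 := congrFun (congrFun hB y) z
  rw [Matrix.one_apply_eq] at h1
  rw [Matrix.one_apply_ne hne] at h2
  have h3 : ∀ a, D.A a y = D.A a z := fun a => if_congr (h a) rfl rfl
  simp only [Matrix.mul_apply, h3] at h1 h2
  rw [h1] at h2
  exact one_ne_zero h2

include D in
theorem card_fix (g : G) :
    #{a : Ω | g • a = a} = #{y : Y | g • y = y} := by
  obtain ⟨B, h1, h2⟩ := D.exists_inv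
  let P : Matrix Ω Ω ℚ := Matrix.of fun a b => if g • b = a then 1 else 0
  let Q : Matrix Y Y ℚ := Matrix.of fun a b => if g • b = a then 1 else 0
  have h3 : P * D.A = D.A * Q := by
    ext a y
    simp only [P, Q, Matrix.mul_apply, Matrix.of_apply, ite_mul, one_mul, zero_mul, mul_ite,
      mul_one, mul_zero]
    simp_rw [← eq_inv_smul_iff (g := g) (b := a)]
    rw [Finset.sum_ite_eq', Finset.sum_ite_eq]
    simp only [Finset.mem_univ, if_true]
    rw [← D.inv_A g, smul_inv_smul]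
  have h4 : P.trace = Q.trace := by
    rw [← Matrix.mul_one P, ← h1, ← Matrix.mul_assoc, h3, Matrix.mul_assoc, Matrix.trace_mul_comm,
      Matrix.mul_assoc, h2, Matrix.mul_one]
  simp only [Matrix.trace, Matrix.diag, P, Q, Matrix.of_apply, Finset.sum_boole] at h4
  exact_mod_cast h4

include D in
theorem two' {x y u v : Y} (h : x ≠ y) (h' : u ≠ v) : ∃ g : G, g • x = u ∧ g • y = v := by
  classical
  obtain ⟨B, h1, h2⟩ := D.exists_inv
  obtain ⟨s, t, hs, -, hg⟩ := D.exists_gram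
  obtain ⟨a, b, y₀, i1, i2⟩ := D.nontriv
  have hab : a ≠ b := by rintro rfl; exact i2 i1
  let M : Matrix Y Y ℚ := Matrix.of fun u v => if ∃ g : G, g • x = u ∧ g • y = v then 1 else 0
  have hM : MInv G M := fun g u v => by
    simp only [M, Matrix.of_apply]
    refine if_congr ⟨?_, ?_⟩ rfl rfl
    · rintro ⟨k, e1, e2⟩
      exact ⟨g⁻¹ * k, by rw [mul_smul, e1, inv_smul_smul], by rw [mul_smul, e2, inv_smul_smul]⟩
    · rintro ⟨k, rfl, rfl⟩
      exact ⟨g * k, mul_smul _ _ _, mul_smul _ _ _⟩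
  obtain ⟨α, β, hN⟩ : ∃ α β : ℚ, D.A * M * D.Aᵀ =
      α • (1 : Matrix Ω Ω ℚ) + β • Matrix.of fun _ _ => (1 : ℚ) :=
    ⟨_, _, MInv.eq_of_two D.two hab ((D.inv_A.mul hM).mul D.inv_A.transpose)⟩
  obtain ⟨r, hr0, hr⟩ : ∃ r : ℚ, r ≠ 0 ∧ ∀ c, ∑ z, D.A c z = r := by
    refine ⟨∑ z, D.A a z, ne_of_gt ?_, fun c => ?_⟩
    · refine Finset.sum_pos' (fun z _ => ?_) ⟨y₀, Finset.mem_univ _, by simp [A, i1]⟩
      simp only [A, Matrix.of_apply]
      split_ifs <;> norm_num
    · obtain ⟨g, rfl⟩ := trans_of_two D.two a c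
      rw [← Equiv.sum_comp (MulAction.toPerm g)]
      exact Finset.sum_congr rfl fun z _ => D.inv_A g a z
  have hJ : D.A * (Matrix.of fun _ _ => (1 : ℚ) : Matrix Y Y ℚ) * D.Aᵀ =
      (r * r) • Matrix.of fun _ _ => (1 : ℚ) := by
    ext i j
    simp [Matrix.mul_apply, hr, ← Finset.mul_sum]
  have h3 : D.A * (M - (α / s) • (1 : Matrix Y Y ℚ) - ((β - α / s * t) / (r * r)) •
      Matrix.of fun _ _ => (1 : ℚ)) * D.Aᵀ = 0 := by
    simp only [Matrix.mul_sub, Matrix.sub_mul, Matrix.mul_smul, Matrix.smul_mul, Matrix.mul_one,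
      hJ, hN, hg]
    ext i j
    simp only [Matrix.sub_apply, Matrix.add_apply, Matrix.smul_apply, Matrix.of_apply,
      smul_eq_mul, Matrix.zero_apply]
    field_simp
    ring
  have h4 := congrArg (fun N => B * N * Bᵀ) h3
  simp only [Matrix.mul_zero, Matrix.zero_mul] at h4
  rw [Matrix.mul_assoc, Matrix.mul_assoc, Matrix.mul_assoc, ← Matrix.transpose_mul, h2,
    Matrix.transpose_one, Matrix.mul_one, ← Matrix.mul_assoc, h2, Matrix.one_mul] at h4
  have e1 := congrFun (congrFun h4 x) y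
  have e2 := congrFun (congrFun h4 u) v
  simp only [Matrix.sub_apply, Matrix.smul_apply, Matrix.one_apply_ne h, Matrix.one_apply_ne h',
    Matrix.of_apply, M, Matrix.zero_apply] at e1 e2
  rw [if_pos ⟨1, one_smul _ _, one_smul _ _⟩] at e1
  by_contra hc
  rw [if_neg hc] at e2
  simp only [smul_eq_mul, mul_zero, mul_one] at e1 e2
  linarith

open Classical in
theorem card_row_eq (a : Ω) (y : Y) : #{z : Y | D.I a z} = #{b : Ω | D.I b y} := by
  have h1 : ∀ c : Ω, #{z : Y | D.I c z} = #{z : Y | D.I a z} := fun c => by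
    obtain ⟨g, rfl⟩ := trans_of_two D.two a c
    symm
    refine Finset.card_bijective (g • ·) (MulAction.bijective g) fun z => ?_
    simp [D.smul]
  have h2 : ∀ z : Y, #{b : Ω | D.I b z} = #{b : Ω | D.I b y} := fun z => by
    obtain ⟨g, rfl⟩ := trans_of_two D.two' y z
    symm
    refine Finset.card_bijective (g • ·) (MulAction.bijective g) fun z => ?_
    simp [D.smul]
  have h3 := Finset.card_mul_eq_card_mul (s := (univ : Finset Ω)) (t := (univ : Finset Y)) D.I
    (fun c _ => h1 c) (fun z _ => h2 z)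
  have h4 : Fintype.card Ω = Fintype.card Y := by simpa [Nat.card_eq_fintype_card] using D.card
  rw [Finset.card_univ, Finset.card_univ, h4] at h3
  haveI : Nonempty Y := ⟨y⟩
  exact Nat.eq_of_mul_eq_mul_left Fintype.card_pos h3

theorem subset_of_subset {x y u v : Y} (h : x ≠ y) (h' : u ≠ v)
    (hs : ∀ a, D.I a x → D.I a y → D.I a u ∧ D.I a v) {a : Ω} (hu : D.I a u) (hv : D.I a v) :
    D.I a x ∧ D.I a y := by
  classical
  obtain ⟨g, rfl, rfl⟩ := D.two' h h'
  have h1 : ({b : Ω | D.I b x ∧ D.I b y} : Finset Ω) =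
      ({b : Ω | D.I b (g • x) ∧ D.I b (g • y)} : Finset Ω) := by
    refine Finset.eq_of_subset_of_card_le (fun b hb => ?_) (le_of_eq ?_)
    · simp only [Finset.mem_filter, Finset.mem_univ, true_and] at hb ⊢
      exact hs b hb.1 hb.2
    · symm
      refine Finset.card_bijective (g • ·) (MulAction.bijective g) fun z => ?_
      simp [D.smul]
  have h2 : a ∈ ({b : Ω | D.I b x ∧ D.I b y} : Finset Ω) := by
    rw [h1]; simp [hu, hv]
  simpa using h2

theorem exists_mem_inter (h2 : ∃ a b z, a ≠ b ∧ D.I a z ∧ D.I b z) {x y : Y} (h : x ≠ y) :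
    ∃ a, D.I a x ∧ D.I a y := by
  classical
  obtain ⟨a, b, z, hab, ha, hb⟩ := h2
  have h1 : 1 < #{w : Y | D.I a w} := by
    rw [D.card_row_eq a z]
    exact Finset.one_lt_card.2 ⟨a, by simp [ha], b, by simp [hb], hab⟩
  obtain ⟨u, hu, v, hv, huv⟩ := Finset.one_lt_card.1 h1
  obtain ⟨g, rfl, rfl⟩ := D.two' huv h
  simp only [Finset.mem_filter, Finset.mem_univ, true_and] at hu hv
  exact ⟨g • a, (D.smul _ _ _).2 hu, (D.smul _ _ _).2 hv⟩

/-- The dual linear space with the pointwise block stabilisers as central collineations. -/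
def central (faith : ∀ {g : G}, (∀ a : Ω, g • a = a) → g = 1)
    (h2 : ∃ a b z, a ≠ b ∧ D.I a z ∧ D.I b z)
    (hn : ∃ (y : Y) (n : G), n ≠ 1 ∧ ∀ a, D.I a y → n • a = a) : Central G Y where
  Col x y z := ∀ a, D.I a x → D.I a y → D.I a z
  left _ _ _ h _ := h
  right _ _ _ _ h := h
  iff h h' hu hv := ⟨fun hw a hx hy => hw a (hu a hx hy) (hv a hx hy), fun hw a h1 h2 => by
    have := D.subset_of_subset h h' (fun a hx hy => ⟨hu a hx hy, hv a hx hy⟩) h1 h2
    exact hw a this.1 this.2⟩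
  smul g x y z h a h1 h2 := by
    obtain ⟨b, rfl⟩ := MulAction.surjective g a
    simp only [D.smul] at h1 h2 ⊢
    exact h b h1 h2
  K y :=
    { carrier := {n | ∀ a, D.I a y → n • a = a}
      one_mem' := fun a _ => one_smul _ a
      mul_mem' := fun h1 h2 a ha => by rw [mul_smul, h2 a ha, h1 a ha]
      inv_mem' := fun h1 a ha => by rw [inv_smul_eq_iff, h1 a ha] }
  conj g x n h a ha := by
    obtain ⟨b, rfl⟩ := MulAction.surjective g a
    simp only [D.smul] at ha
    exact (Elat.smul_conj_iff g n b).2 (h b ha)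
  fix {x n} h := by
    classical
    have h1 : ({b : Ω | D.I b x} : Finset Ω) = ({b : Ω | D.I b (n • x)} : Finset Ω) := by
      refine Finset.eq_of_subset_of_card_le (fun b hb => ?_) (le_of_eq ?_)
      · simp only [Finset.mem_filter, Finset.mem_univ, true_and] at hb ⊢
        rw [← h b hb]
        exact (D.smul _ _ _).2 hb
      · obtain ⟨a, -⟩ := h2
        rw [← D.card_row_eq a, D.card_row_eq a x]
    refine D.inj fun a => ?_
    simpa using (Finset.ext_iff.1 h1 a).symm
  pres y h _ a hx hy := by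
    rw [← h a hx]
    exact (D.smul _ _ _).2 hy
  two := D.two'
  faith {g} h := faith fun a => by
    have h1 := D.card_fix g
    have h4 : Fintype.card Ω = Fintype.card Y := by simpa [Nat.card_eq_fintype_card] using D.card
    simp only [h, Finset.filter_true, Finset.card_univ, ← h4] at h1
    have := Finset.eq_univ_of_card _ h1
    simpa using Finset.eq_univ_iff_forall.1 this a
  nontriv := by
    obtain ⟨y, n, h1, h⟩ := hn
    exact ⟨y, n, h, h1⟩
  notall {x y} h := by
    obtain ⟨a, h1, h3⟩ := D.exists_mem_inter h2 h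
    obtain ⟨-, b, z, -, hb⟩ := D.nontriv
    obtain ⟨g, rfl⟩ := trans_of_two D.two b a
    exact ⟨g • z, fun hc => hb ((D.smul _ _ _).1 (hc _ h1 h3))⟩
  big {x y n} hn h hf t ht := by
    classical
    obtain ⟨a, h1, h3⟩ := D.exists_mem_inter h2 h
    have e : ({z : Y | n • z = z} : Finset Y) = ({z : Y | D.I a z} : Finset Y) := by
      refine Finset.eq_of_subset_of_card_le (fun z hz => ?_) ?_
      · simp only [Finset.mem_filter, Finset.mem_univ, true_and] at hz ⊢
        exact hf z hz a h1 h3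
      · rw [D.card_row_eq a x, ← D.card_fix]
        refine Finset.card_le_card fun b hb => ?_
        simp only [Finset.mem_filter, Finset.mem_univ, true_and] at hb ⊢
        exact hn b hb
    simpa [ht a h1 h3] using Finset.ext_iff.1 e t

end SymD

theorem ito {G Ω : Type*} [Group G] [Finite G] [MulAction G Ω] [FaithfulSMul G Ω] [Finite Ω]
    (h2 : MulAction.IsMultiplyPretransitive G Ω 2) (H : Subgroup G) (hidx : H.index = Nat.card Ω)
    (hnt : ¬ MulAction.IsPretransitive H Ω) (hfix : ∀ a : Ω, ∃ h : H, h • a ≠ a)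
    (hunf : ∃ a : Ω, ∃ h : H, h ≠ 1 ∧ ∀ b ∈ MulAction.orbit H a, h • b = b) :
    ∃ (m : ℕ) (F : Type) (_ : Field F) (_ : Fintype F), 2 ≤ m ∧
      Nat.card Ω = (Fintype.card F ^ (m + 1) - 1) / (Fintype.card F - 1) ∧
      ∃ N : Subgroup G, N.Normal ∧
        Nonempty (N ≃* Matrix.ProjectiveSpecialLinearGroup (Fin (m + 1)) F) ∧
        Subgroup.centralizer (N : Set G) = ⊥ := by
  classical
  haveI := Fintype.ofFinite Ω
  haveI := Fintype.ofFinite (G ⧸ H)
  obtain ⟨a, n, hn1, hn⟩ := hunf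
  have hI : ∀ b : Ω, (∃ g : G, (g : G ⧸ H) = ((1 : G) : G ⧸ H) ∧ g • a = b) ↔ b ∈ orbit H a := by
    intro b
    constructor
    · rintro ⟨g, h1, rfl⟩
      rw [QuotientGroup.eq, mul_one, inv_mem_iff] at h1
      exact ⟨⟨g, h1⟩, rfl⟩
    · rintro ⟨g, rfl⟩
      exact ⟨g, by rw [QuotientGroup.eq, mul_one]; exact inv_mem g.2, rfl⟩
  let D : SymD G Ω (G ⧸ H) :=
    { I := fun b y => ∃ g : G, (g : G ⧸ H) = y ∧ g • a = b
      smul := fun g b y => ⟨fun ⟨k, h1, h2⟩ => ⟨g⁻¹ * k, by
          rw [← smul_eq_mul, ← MulAction.Quotient.smul_mk, h1, inv_smul_smul],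
          by rw [mul_smul, h2, inv_smul_smul]⟩,
        fun ⟨k, h1, h2⟩ => ⟨g * k, by rw [← smul_eq_mul, ← MulAction.Quotient.smul_mk, h1],
          by rw [mul_smul, h2]⟩⟩
      two := fun h h' => MulAction.is_two_pretransitive_iff.1 h2 h h'
      card := hidx.symm
      nontriv := by
        by_contra! hc
        refine hnt ⟨fun x y => ?_⟩
        obtain ⟨g, rfl⟩ := (hI x).1 (hc a x _ ⟨1, rfl, one_smul _ _⟩)
        obtain ⟨k, rfl⟩ := (hI y).1 (hc a y _ ⟨1, rfl, one_smul _ _⟩)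
        exact ⟨k * g⁻¹, by simp [mul_smul]⟩ }
  obtain ⟨k, hk⟩ := hfix a
  obtain ⟨p, _, E, -⟩ := (D.central
    (fun h => FaithfulSMul.eq_of_smul_eq_smul (α := Ω) fun x => by rw [h, one_smul])
    ⟨k • a, a, ((1 : G) : G ⧸ H), hk, (hI _).2 (mem_orbit a k), (hI _).2 (mem_orbit_self a)⟩
    ⟨((1 : G) : G ⧸ H), n, fun h => hn1 (Subtype.ext h), fun b hb => hn b ((hI b).1 hb)⟩).exists_elat
  obtain ⟨F, i1, i2, m, hm, hc, M, hM, he, hC, -⟩ := E.main
  obtain ⟨m, rfl⟩ : ∃ k, m = k + 1 := ⟨m - 1, by omega⟩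
  exact ⟨m, F, i1, i2, by omega, D.card.trans hc, M, hM, he, hC⟩

end H81
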