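import Mathlib
import Cfsg.Agent.Base
import Cfsg.Agent.Lib.H81.PlanePP
import Cfsg.Agent.Lib.H81.SymDesign
import Cfsg.Agent.Lib.FGS.OrbitCong

/-! The Ostrom-Wagner theorem: a 2-transitive collineation group contains a perspectivity. -/

set_option autoImplicit false

namespace H81

open MulAction

theorem SymD.anti {G Ω Y : Type*} [Group G] [MulAction G Ω] [MulAction G Y] (D : SymD G Ω Y)
    [Fintype Ω] [Fintype Y] {a b : Ω} {y z : Y} (h : ¬ D.I a y) (h' : ¬ D.I b z) :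
    ∃ g : G, g • a = b ∧ g • y = z := by
  classical
  obtain ⟨B, h1, h2⟩ := D.exists_inv
  obtain ⟨s, t, hs, -, hg⟩ := D.exists_gram
  obtain ⟨a₀, b₀, y₀, i1, i2⟩ := D.nontriv
  have hab : a₀ ≠ b₀ := by rintro rfl; exact i2 i1
  let M : Matrix Ω Y ℚ := Matrix.of fun u v => if ∃ g : G, g • a = u ∧ g • y = v then 1 else 0
  have hM : MInv G M := fun g u v => by
    simp only [M, Matrix.of_apply]
    refine if_congr ⟨?_, ?_⟩ rfl rfl
    · rintro ⟨k, e1, e2⟩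
      exact ⟨g⁻¹ * k, by rw [mul_smul, e1, inv_smul_smul], by rw [mul_smul, e2, inv_smul_smul]⟩
    · rintro ⟨k, rfl, rfl⟩
      exact ⟨g * k, mul_smul _ _ _, mul_smul _ _ _⟩
  obtain ⟨α, β, hN⟩ : ∃ α β : ℚ, M * D.A.transpose =
      α • (1 : Matrix Ω Ω ℚ) + β • Matrix.of fun _ _ => (1 : ℚ) :=
    ⟨_, _, MInv.eq_of_two D.two hab (hM.mul D.inv_A.transpose)⟩
  obtain ⟨r, hr0, hr⟩ : ∃ r : ℚ, r ≠ 0 ∧ ∀ c, ∑ z, D.A c z = r := by
    refine ⟨∑ z, D.A a₀ z, ne_of_gt ?_, fun c => ?_⟩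
    · refine Finset.sum_pos' (fun z _ => ?_) ⟨y₀, Finset.mem_univ _, by simp [SymD.A, i1]⟩
      simp only [SymD.A, Matrix.of_apply]
      split_ifs <;> norm_num
    · obtain ⟨g, rfl⟩ := trans_of_two D.two a₀ c
      rw [← Equiv.sum_comp (MulAction.toPerm g)]
      exact Finset.sum_congr rfl fun z _ => D.inv_A g a₀ z
  have hJ : (Matrix.of fun _ _ => (1 : ℚ) : Matrix Ω Y ℚ) * D.A.transpose =
      r • Matrix.of fun _ _ => (1 : ℚ) := by
    ext i j
    simp [Matrix.mul_apply, hr]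
  have h3 : (M - (α / s) • D.A - ((β - α / s * t) / r) •
      Matrix.of fun _ _ => (1 : ℚ)) * D.A.transpose = 0 := by
    simp only [Matrix.sub_mul, Matrix.smul_mul, hJ, hN, hg]
    ext i j
    simp only [Matrix.sub_apply, Matrix.add_apply, Matrix.smul_apply, Matrix.of_apply,
      smul_eq_mul, Matrix.zero_apply]
    field_simp
    ring
  have h4 := congrArg (fun N => N * B.transpose) h3
  simp only [Matrix.zero_mul] at h4
  rw [Matrix.mul_assoc, ← Matrix.transpose_mul, h2, Matrix.transpose_one, Matrix.mul_one] at h4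
  have e1 := congrFun (congrFun h4 a) y
  have e2 := congrFun (congrFun h4 b) z
  simp only [Matrix.sub_apply, Matrix.smul_apply, Matrix.of_apply, M, Matrix.zero_apply, SymD.A,
    if_neg h, if_neg h'] at e1 e2
  rw [if_pos ⟨1, one_smul _ _, one_smul _ _⟩] at e1
  by_contra hc
  rw [if_neg hc] at e2
  simp only [smul_eq_mul, mul_zero, mul_one] at e1 e2
  linarith

theorem ncard_orbit_eq {G X : Type*} [Group G] [MulAction G X] (H : Subgroup G) (y : X) :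
    (orbit H y).ncard = (stabilizer G y).relIndex H := by
  rw [← index_stabilizer]; rfl

theorem dvd_ncard_orbit {G X : Type*} [Group G] [MulAction G X] {Q H : Subgroup G} (hle : Q ≤ H)
    {d : ℕ} (hc : d.Coprime (Q.relIndex H)) {y : X} (hd : d ∣ (orbit H y).ncard) :
    d ∣ (orbit Q y).ncard := by
  rw [ncard_orbit_eq] at hd ⊢
  refine hc.dvd_of_dvd_mul_right ?_
  rw [← Subgroup.inf_relIndex_right, Subgroup.relIndex_mul_relIndex _ _ _ inf_le_right hle]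
  exact hd.trans (Subgroup.relIndex_dvd_of_le_left _ inf_le_left)

theorem dvd_ncard_of_orbits {G X : Type*} [Group G] [MulAction G X] [Finite X] (H : Subgroup G)
    (S : Set X) (hS : ∀ g ∈ H, ∀ s ∈ S, g • s ∈ S) {d : ℕ}
    (h : ∀ s ∈ S, d ∣ (orbit H s).ncard) : d ∣ S.ncard := by
  let T : SubMulAction H X := ⟨S, fun g _ hs => hS g g.2 _ hs⟩
  refine H77.dvd_card_of_forall_dvd_index (H := H) (α := T) fun x => ?_
  rw [SubMulAction.stabilizer_of_subMul, index_stabilizer]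
  exact h x x.2

theorem exists_sylow_le {G : Type*} [Group G] [Finite G] (p : ℕ) [Fact p.Prime] (H : Subgroup G) :
    ∃ Q ≤ H, IsPGroup p Q ∧ p.Coprime (Q.relIndex H) := by
  obtain ⟨S⟩ : Nonempty (Sylow p H) := inferInstance
  refine ⟨(S : Subgroup H).map H.subtype, Subgroup.map_subtype_le _, S.isPGroup'.map _, ?_⟩
  rw [Subgroup.relIndex, Subgroup.subgroupOf,
    Subgroup.comap_map_eq_self_of_injective H.subtype_injective]
  exact (Nat.Prime.coprime_iff_not_dvd Fact.out).2 S.not_dvd_index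

/-- `U` has index at most two in `V`. -/
structure Step {G : Type*} [Group G] (U V : Subgroup G) (g : G) : Prop where
  le : U ≤ V
  mem : g ∈ V
  or : ∀ u ∈ V, u ∈ U ∨ g⁻¹ * u ∈ U

theorem Step.sq {G : Type*} [Group G] {U V : Subgroup G} {g : G} (h : Step U V g) : g * g ∈ U :=
  (h.or _ (mul_mem h.mem h.mem)).elim id fun h1 => by
    rw [inv_mul_cancel_left] at h1
    exact mul_mem h1 h1

theorem Step.conj {G : Type*} [Group G] {U V : Subgroup G} {g : G} (h : Step U V g) {u : G}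
    (hu : u ∈ U) : g * u * g⁻¹ ∈ U :=
  (h.or _ (mul_mem (mul_mem h.mem (h.le hu)) (inv_mem h.mem))).elim id fun h1 => by
    rw [mul_assoc, inv_mul_cancel_left, U.mul_mem_cancel_left hu] at h1
    exact mul_mem (mul_mem (inv_mem_iff.1 h1) hu) h1

theorem Step.conj' {G : Type*} [Group G] {U V : Subgroup G} {g : G} (h : Step U V g) {u : G}
    (hu : u ∈ U) : g⁻¹ * u * g ∈ U := by
  have := h.conj (mul_mem (mul_mem (inv_mem h.sq) hu) h.sq)
  simpa [mul_assoc] using this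

theorem exists_step {G : Type*} [Group G] [Finite G] {U K : Subgroup G} (hle : U ≤ K) {k : ℕ}
    (hU : Nat.card U = 2 ^ k) (h : 2 ^ (k + 1) ∣ Nat.card K) :
    ∃ V g, Step U V g ∧ V ≤ K ∧ Nat.card V = 2 ^ (k + 1) := by
  obtain ⟨W, h1, h2⟩ := Sylow.exists_subgroup_card_pow_succ h (H := U.subgroupOf K)
    (by rwa [Nat.card_congr (Subgroup.subgroupOfEquivOfLe hle).toEquiv])
  have h3 : Nat.card (W.map K.subtype) = 2 ^ (k + 1) := by
    rwa [Subgroup.card_map_of_injective K.subtype_injective]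
  have h4 : U ≤ W.map K.subtype := fun u hu => ⟨⟨u, hle hu⟩, h2 hu, rfl⟩
  have h5 : (U.subgroupOf (W.map K.subtype)).index = 2 := by
    have := (U.subgroupOf (W.map K.subtype)).card_mul_index
    rw [Nat.card_congr (Subgroup.subgroupOfEquivOfLe h4).toEquiv, hU, h3, pow_succ] at this
    exact Nat.eq_of_mul_eq_mul_left (by positivity) this
  obtain ⟨g, hg⟩ := Subgroup.index_eq_two_iff'.1 h5
  refine ⟨_, (g⁻¹ : _), ⟨h4, (g⁻¹).2, fun u hu => ?_⟩, Subgroup.map_subtype_le _, h3⟩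
  rcases hg ⟨u, hu⟩ with h6 | h6
  · exact Or.inr (by simpa [Subgroup.mem_subgroupOf] using h6.1)
  · exact Or.inl h6.1

/-- Common fixed points. -/
def Fx {G : Type*} [Group G] (S : Set G) (X : Type*) [MulAction G X] : Set X :=
  {a | ∀ g ∈ S, g • a = a}

theorem Step.mem_Fx {G X : Type*} [Group G] [MulAction G X] {U V : Subgroup G} {g : G}
    (h : Step U V g) {a : X} (ha : a ∈ Fx (U : Set G) X) (hg : g • a = a) :
    a ∈ Fx (V : Set G) X := fun u hu => (h.or u hu).elim (ha u) fun h1 => by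
  have := ha _ h1
  rwa [mul_smul, inv_smul_eq_iff, hg] at this

theorem Step.smul_mem_Fx {G X : Type*} [Group G] [MulAction G X] {U V : Subgroup G} {g : G}
    (h : Step U V g) (a : X) : g • a ∈ Fx (U : Set G) X ↔ a ∈ Fx (U : Set G) X :=
  ⟨fun ha u hu => (Elat.smul_conj_iff g u a).1 (ha _ (h.conj hu)), fun ha u hu => by
    have := ha _ (h.conj' hu)
    rwa [mul_smul, mul_smul, inv_smul_eq_iff] at this⟩

namespace Pl

variable {G P L : Type*} [Group G] [MulAction G P] [MulAction G L] {π : Pl G P L}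

theorem Planar.exists_sub {S : Set G} (h : π.Planar S) :
    ∃ π₀ : Inc (Fx S P) (Fx S L), ∀ a l, π₀.I a l ↔ π.I a l := by
  haveI := π.finP
  haveI := π.finL
  obtain ⟨p₁, p₂, p₃, l₁, l₂, l₃, h, h'⟩ := h
  refine exists_inc (fun (a : Fx S P) (l : Fx S L) => π.I a l) (fun a b hab => ?_)
    (fun l k hlk => ?_) (fun h1 h2 h3 h4 => (π.uniq h1 h2 h3 h4).imp Subtype.ext Subtype.ext)
    (p₁ := ⟨p₁, fun g hg => (h' g hg).1⟩) (p₂ := ⟨p₂, fun g hg => (h' g hg).2.1⟩)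
    (p₃ := ⟨p₃, fun g hg => (h' g hg).2.2.1⟩) (l₁ := ⟨l₁, fun g hg => (h' g hg).2.2.2.1⟩)
    (l₂ := ⟨l₂, fun g hg => (h' g hg).2.2.2.2.1⟩) (l₃ := ⟨l₃, fun g hg => (h' g hg).2.2.2.2.2⟩) h
  · obtain ⟨l, h1, h2⟩ := π.join a b
    exact ⟨⟨l, fun g hg => fix_line (Subtype.coe_ne_coe.2 hab) h1 h2 (a.2 g hg) (b.2 g hg)⟩, h1, h2⟩
  · obtain ⟨a, h1, h2⟩ := π.meet l k
    exact ⟨⟨a, fun g hg => fix_pt (Subtype.coe_ne_coe.2 hlk) h1 h2 (l.2 g hg) (k.2 g hg)⟩, h1, h2⟩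

theorem baer {σ : G} (hσ : σ * σ = 1) (h : π.Planar {σ}) :
    ∃ m, Nat.card (Fx {σ} P) = m ^ 2 + m + 1 ∧ (π.n = m ∨ π.n = m ^ 2) := by
  classical
  haveI := π.finP
  haveI := π.finL
  haveI := Fintype.ofFinite P
  haveI := Fintype.ofFinite L
  obtain ⟨π₀, h₀⟩ := h.exists_sub
  refine ⟨π₀.n, π₀.cP, ?_⟩
  have hF : ∀ {X : Type _} [MulAction G X] (a : X), a ∈ Fx {σ} X ↔ σ • a = a := by simp [Fx]
  have hF' : ∀ a : L, a ∈ Fx {σ} L ↔ σ • a = a := by simp [Fx]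
  have h1 : ∀ l : L, σ • l = l → {a | π.I a l ∧ σ • a ≠ a}.ncard + π₀.n = π.n := fun l hl => by
    have e1 := π₀.cardL ⟨l, (hF' l).2 hl⟩
    rw [← Set.ncard_image_of_injective _ Subtype.val_injective] at e1
    have e2 := π.cardL l
    rw [show {a | π.I a l} = {a | π.I a l ∧ σ • a ≠ a} ∪
      Subtype.val '' {a | π₀.I a ⟨l, (hF' l).2 hl⟩} from ?_, Set.ncard_union_eq ?_, e1] at e2
    · omega
    · rw [Set.disjoint_right]
      rintro _ ⟨a, -, rfl⟩ h2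
      exact h2.2 ((hF _).1 a.2)
    · ext a
      constructor
      · intro ha
        by_cases h2 : σ • a = a
        · exact Or.inr ⟨⟨a, (hF a).2 h2⟩, (h₀ _ _).2 ha, rfl⟩
        · exact Or.inl ⟨ha, h2⟩
      · rintro (h2 | ⟨b, hb, rfl⟩)
        · exact h2.1
        · exact (h₀ _ _).1 hb
  obtain ⟨l₀⟩ := (Nat.card_ne_zero.1 (π₀.cL.trans_ne (Nat.succ_ne_zero _))).1
  obtain ⟨d, hd⟩ : ∃ d, d + π₀.n = π.n := ⟨_, h1 l₀ ((hF' _).1 l₀.2)⟩
  have h2 := Finset.card_mul_eq_card_mul (s := Finset.univ.filter fun a : P => σ • a ≠ a)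
    (t := Finset.univ.filter fun l : L => σ • l = l) π.I (m := 1) (n := d) (fun a ha => ?_)
    (fun l hl => ?_)
  · have h3 : (Finset.univ.filter fun l : L => σ • l = l).card = π₀.n ^ 2 + π₀.n + 1 := by
      rw [← π₀.cL, Nat.card_coe_set_eq, ← Set.ncard_coe_finset]
      congr 1
      ext; simp [hF']
    have h4 : (Finset.univ.filter fun a : P => σ • a = a).card = π₀.n ^ 2 + π₀.n + 1 := by
      rw [← π₀.cP, Nat.card_coe_set_eq, ← Set.ncard_coe_finset]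
      congr 1
      ext; simp [hF]
    have h5 := Finset.card_filter_add_card_filter_not (s := Finset.univ) fun a : P => σ • a = a
    rw [h4, Finset.card_univ, ← Nat.card_eq_fintype_card, π.cP] at h5
    rw [h3, mul_one] at h2
    simp only [ne_eq] at h2
    rw [h2, ← hd] at h5
    rw [← hd]
    rcases Nat.eq_zero_or_pos d with rfl | h6
    · exact Or.inl (zero_add _)
    · refine Or.inr (Nat.eq_of_mul_eq_mul_left h6 ?_)
      nlinarith
  · rw [Finset.mem_filter] at ha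
    obtain ⟨l, h3, h4⟩ := exists_fix_line (π := π) hσ ha.2
    refine Finset.card_eq_one.2 ⟨l, Finset.eq_singleton_iff_unique_mem.2 ⟨by simp [h3, h4],
      fun k hk => ?_⟩⟩
    simp only [Finset.mem_bipartiteAbove, Finset.mem_filter, Finset.mem_univ, true_and] at hk
    by_contra hne
    exact ha.2 (fix_pt hne hk.2 h3 hk.1 h4)
  · rw [Finset.mem_filter] at hl
    have := h1 l hl.2
    rw [show {a | π.I a l ∧ σ • a ≠ a} = ↑((Finset.univ.filter fun a : P => σ • a ≠ a).bipartiteBelow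
      π.I l) by ext; simp [and_comm], Set.ncard_coe_finset] at this
    omega

theorem exists_res {U V : Subgroup G} {g : G} (h : Step U V g)
    (π₀ : Inc (Fx (U : Set G) P) (Fx (U : Set G) L)) (h₀ : ∀ a l, π₀.I a l ↔ π.I a l) :
    ∃ k : π₀.Aut, (∀ a : Fx (U : Set G) P, ((k • a : Fx (U : Set G) P) : P) = g • (a : P)) ∧
      ∀ a : Fx (U : Set G) L, ((k • a : Fx (U : Set G) L) : L) = g • (a : L) :=
  ⟨⟨((toPerm g).subtypePerm h.smul_mem_Fx, (toPerm g).subtypePerm h.smul_mem_Fx), fun a l => by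
    rw [h₀, h₀]; exact π.smul g a l⟩, fun _ => rfl, fun _ => rfl⟩

theorem exists_hom_of_step {U V : Subgroup G} {g : G} (h : Step U V g) (hU : π.Planar U)
    (hV : ¬ π.Planar V) {G₀ : Type*} [Group G₀] [MulAction G₀ (Fx (U : Set G) P)]
    [MulAction G₀ (Fx (U : Set G) L)] (π₀ : Pl G₀ (Fx (U : Set G) P) (Fx (U : Set G) L))
    (h₀ : ∀ a l, π₀.I a l ↔ π.I a l) (hn : Odd π₀.n) {k : G₀}
    (h1 : ∀ a : Fx (U : Set G) P, ((k • a : Fx (U : Set G) P) : P) = g • (a : P))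
    (h2 : ∀ a : Fx (U : Set G) L, ((k • a : Fx (U : Set G) L) : L) = g • (a : L)) :
    ∃ c l, π₀.Hom k c l := by
  have hk : k * k = 1 := π₀.faith fun a => Subtype.ext (by
    rw [mul_smul, h1, h1, ← mul_smul, a.2 _ h.sq])
  have hp : ¬ π₀.Planar {k} := by
    rintro ⟨p₁, p₂, p₃, l₁, l₂, l₃, hc, hf⟩
    obtain ⟨f1, f2, f3, f4, f5, f6⟩ := hf k rfl
    refine hV ⟨p₁, p₂, p₃, l₁, l₂, l₃, by simpa only [Cfg, h₀] using hc, fun u hu => ⟨?_, ?_, ?_, ?_,
      ?_, ?_⟩⟩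
    · exact h.mem_Fx p₁.2 (by rw [← h1, f1]) u hu
    · exact h.mem_Fx p₂.2 (by rw [← h1, f2]) u hu
    · exact h.mem_Fx p₃.2 (by rw [← h1, f3]) u hu
    · exact h.mem_Fx l₁.2 (by rw [← h2, f4]) u hu
    · exact h.mem_Fx l₂.2 (by rw [← h2, f5]) u hu
    · exact h.mem_Fx l₃.2 (by rw [← h2, f6]) u hu
  obtain ⟨l, hl⟩ := exists_ax_of_invol hk hp
  obtain ⟨c, hc⟩ := hl.exists_cen
  have hk1 : k ≠ 1 := by
    rintro rfl
    obtain ⟨p₁, p₂, p₃, l₁, l₂, l₃, hc, hf⟩ := hU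
    refine hp ⟨⟨p₁, fun g hg => (hf g hg).1⟩, ⟨p₂, fun g hg => (hf g hg).2.1⟩,
      ⟨p₃, fun g hg => (hf g hg).2.2.1⟩, ⟨l₁, fun g hg => (hf g hg).2.2.2.1⟩,
      ⟨l₂, fun g hg => (hf g hg).2.2.2.2.1⟩, ⟨l₃, fun g hg => (hf g hg).2.2.2.2.2⟩,
      by simpa only [Cfg, h₀] using hc, ?_⟩
    rintro _ rfl
    simp
  exact ⟨c, l, hk, hk1, hc, hl, fun h => hk1 (eq_one_of_invol hn hk hc hl h)⟩

/-- 2-transitivity on points. -/
def Two (_ : Pl G P L) : Prop := ∀ ⦃x y u v : P⦄, x ≠ y → u ≠ v → ∃ g : G, g • x = u ∧ g • y = v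

/-- The plane as a symmetric design. -/
def Two.symD (h : π.Two) : SymD G P L where
  I := π.I
  smul := π.smul
  two h1 h2 := h h1 h2
  card := π.cP.trans π.cL.symm
  nontriv := by
    obtain ⟨l⟩ := (Nat.card_ne_zero.1 (π.cL.trans_ne (Nat.succ_ne_zero _))).1
    obtain ⟨a, ha, -⟩ := π.meet l l
    obtain ⟨b, hb⟩ := π.exists_not l
    exact ⟨a, b, l, ha, hb⟩

theorem Two.dual (h : π.Two) : π.dual.Two := fun _ _ _ _ h1 h2 => by
  classical
  haveI := π.finP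
  haveI := π.finL
  haveI := Fintype.ofFinite P
  haveI := Fintype.ofFinite L
  exact h.symD.two' h1 h2

theorem Two.card_eq (h : π.Two) {a b c d : P} (h1 : a ≠ b) (h2 : c ≠ d) :
    Nat.card (stabilizer G a ⊓ stabilizer G b : Subgroup G) =
      Nat.card (stabilizer G c ⊓ stabilizer G d : Subgroup G) := by
  obtain ⟨g, rfl, rfl⟩ := h h1 h2
  exact card_eq_of_conj g fun u => and_congr (Elat.smul_conj_iff g u a) (Elat.smul_conj_iff g u b)

theorem Two.ncard_orbit (h : π.Two) {a b : P} (h1 : a ≠ b) :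
    (orbit (stabilizer G a) b).ncard = π.n ^ 2 + π.n := by
  haveI := π.finP
  have h2 : orbit (stabilizer G a) b = {a}ᶜ := by
    ext c
    constructor
    · rintro ⟨g, rfl⟩ h2
      exact h1 (MulAction.injective (g : G) (Eq.trans g.2 h2.symm))
    · intro hc
      obtain ⟨g, h2, rfl⟩ := h h1 (Ne.symm hc)
      exact ⟨⟨g, h2⟩, rfl⟩
  have h3 := Set.ncard_add_ncard_compl ({a} : Set P)
  rw [Set.ncard_singleton, π.cP] at h3
  rw [h2]
  omega

variable [Finite G]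

theorem cov_of (h : π.Two) {U : Subgroup G} {k : ℕ} (hk : Nat.card U = 2 ^ k) (hU : π.Planar U)
    (hno : ∀ V g, Step U V g → Nat.card V = 2 ^ (k + 1) → ¬ π.Planar V)
    {G₀ : Type*} [Group G₀] [MulAction G₀ (Fx (U : Set G) P)]
    [MulAction G₀ (Fx (U : Set G) L)] (π₀ : Pl G₀ (Fx (U : Set G) P) (Fx (U : Set G) L))
    (h₀ : ∀ a l, π₀.I a l ↔ π.I a l) (hn : Odd π₀.n)
    (res : ∀ V g, Step U V g → ∃ k : G₀,
      (∀ a : Fx (U : Set G) P, ((k • a : Fx (U : Set G) P) : P) = g • (a : P)) ∧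
      ∀ a : Fx (U : Set G) L, ((k • a : Fx (U : Set G) L) : L) = g • (a : L)) : π₀.Cov := by
  intro a b hab
  have hab' : (a : P) ≠ b := Subtype.coe_ne_coe.2 hab
  have hle : U ≤ stabilizer G (a : P) ⊓ stabilizer G (b : P) := fun u hu => ⟨a.2 u hu, b.2 u hu⟩
  have h1 : 2 ^ (k + 1) ∣ Nat.card (stabilizer G (a : P) ⊓ stabilizer G (b : P) : Subgroup G) := by
    have h2 : 2 ^ (k + 1) ∣ Nat.card (⊤ : Subgroup G) := by
      rw [Subgroup.card_top, ← (stabilizer G (a : P) ⊓ stabilizer G (b : P)).card_mul_index,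
        pow_succ, ← hk]
      refine Nat.mul_dvd_mul (Subgroup.card_dvd_of_le hle) ?_
      rw [← Subgroup.relIndex_mul_index (inf_le_left (a := stabilizer G (a : P))
        (b := stabilizer G (b : P))), Subgroup.inf_relIndex_left, ← ncard_orbit_eq,
        h.ncard_orbit hab', show π.n ^ 2 + π.n = π.n * (π.n + 1) by ring]
      exact (Nat.even_mul_succ_self _).two_dvd.mul_right _
    obtain ⟨V, g, hs, -, hV⟩ := exists_step le_top hk h2
    obtain ⟨κ, r1, r2⟩ := res V g hs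
    obtain ⟨c, l, hκ⟩ := exists_hom_of_step hs hU (hno V g hs hV) π₀ h₀ hn r1 r2
    obtain ⟨d, hd, -⟩ := π₀.meet l l
    obtain ⟨e, he, hed, -⟩ := π₀.exists_pt l d d
    rw [h.card_eq hab' (Subtype.coe_ne_coe.2 hed), ← hV]
    exact Subgroup.card_dvd_of_le fun u hu =>
      ⟨hs.mem_Fx e.2 (by rw [← r1, hκ.ax e he]) u hu, hs.mem_Fx d.2 (by rw [← r1, hκ.ax d hd]) u hu⟩
  obtain ⟨V, g, hs, hVle, hV⟩ := exists_step hle hk h1
  obtain ⟨κ, r1, r2⟩ := res V g hs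
  obtain ⟨c, l, hκ⟩ := exists_hom_of_step hs hU (hno V g hs hV) π₀ h₀ hn r1 r2
  exact ⟨κ, c, l, hκ, Subtype.ext ((r1 a).trans (hVle hs.mem).1),
    Subtype.ext ((r1 b).trans (hVle hs.mem).2)⟩

theorem isPrimePow_aux (h : π.Two) (i : ℕ) : ∀ (U : Subgroup G) (k m : ℕ), U.index = i →
    Nat.card U = 2 ^ k → π.Planar U → Nat.card (Fx (U : Set G) P) = m ^ 2 + m + 1 → Odd m →
    IsPrimePow m := by
  induction i using Nat.strong_induction_on with
  | _ i ih =>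
  rintro U k m rfl hk hU hm hodd
  obtain ⟨π₀, h₀⟩ := hU.exists_sub
  haveI := π₀.finAut
  obtain rfl : m = π₀.n := by
    have := π₀.cP
    nlinarith
  by_cases hno : ∀ V g, Step U V g → Nat.card V = 2 ^ (k + 1) → ¬ π.Planar V
  · refine isPrimePow_of_cov (π := π₀.toPl) hodd
      (cov_of h hk hU hno π₀.toPl h₀ hodd fun V g hs => exists_res hs π₀ h₀)
      (cov_of (π := π.dual) h.dual hk hU.dual (fun V g hs hV hp => hno V g hs hV hp.dual)
        π₀.toPl.dual (fun l a => h₀ a l) hodd fun V g hs => ?_)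
    obtain ⟨κ, r1, r2⟩ := exists_res hs π₀ h₀
    exact ⟨κ, r2, r1⟩
  push Not at hno
  obtain ⟨V, g, hs, hV, hp⟩ := hno
  obtain ⟨κ, r1, r2⟩ := exists_res hs π₀ h₀
  have hκ : κ * κ = 1 := π₀.toPl.faith fun a => Subtype.ext (by
    rw [mul_smul, r1, r1, ← mul_smul, a.2 _ hs.sq])
  have hp' : π₀.toPl.Planar {κ} := by
    obtain ⟨p₁, p₂, p₃, l₁, l₂, l₃, hc, hf⟩ := hp
    refine ⟨⟨p₁, fun g hg => (hf g (hs.le hg)).1⟩, ⟨p₂, fun g hg => (hf g (hs.le hg)).2.1⟩,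
      ⟨p₃, fun g hg => (hf g (hs.le hg)).2.2.1⟩, ⟨l₁, fun g hg => (hf g (hs.le hg)).2.2.2.1⟩,
      ⟨l₂, fun g hg => (hf g (hs.le hg)).2.2.2.2.1⟩, ⟨l₃, fun g hg => (hf g (hs.le hg)).2.2.2.2.2⟩,
      by simpa only [Cfg, Inc.toPl, h₀] using hc, ?_⟩
    rintro _ rfl
    obtain ⟨f1, f2, f3, f4, f5, f6⟩ := hf g hs.mem
    exact ⟨Subtype.ext ((r1 _).trans f1), Subtype.ext ((r1 _).trans f2),
      Subtype.ext ((r1 _).trans f3), Subtype.ext ((r2 _).trans f4), Subtype.ext ((r2 _).trans f5),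
      Subtype.ext ((r2 _).trans f6)⟩
  obtain ⟨m, hm1, hm2⟩ := baer hκ hp'
  have h1 : V.index < U.index := by
    have e1 := U.card_mul_index
    have e2 := V.card_mul_index
    have e3 := V.index_ne_zero_of_finite
    rw [hV, ← e1, hk, pow_succ, mul_assoc] at e2
    have := Nat.eq_of_mul_eq_mul_left (by positivity) e2
    omega
  have h2 : Nat.card (Fx (V : Set G) P) = m ^ 2 + m + 1 := by
    rw [← hm1]
    refine Nat.card_congr ⟨fun a => ⟨⟨a, fun u hu => a.2 u (hs.le hu)⟩, ?_⟩,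
      fun a => ⟨a.1, hs.mem_Fx a.1.2 (by rw [← r1, a.2 κ rfl])⟩, fun _ => rfl, fun _ => rfl⟩
    rintro _ rfl
    exact Subtype.ext ((r1 _).trans (a.2 g hs.mem))
  change π₀.n = m ∨ π₀.n = m ^ 2 at hm2
  rcases hm2 with hm2 | hm2
  · exact hm2 ▸ ih _ h1 V _ m rfl hV hp h2 (hm2 ▸ hodd)
  · rw [hm2] at hodd ⊢
    exact (ih _ h1 V _ m rfl hV hp h2 ((Nat.odd_pow_iff two_ne_zero).1 hodd)).pow two_ne_zero

theorem planar_bot : π.Planar (⊥ : Subgroup G) := by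
  obtain ⟨l₂⟩ := (Nat.card_ne_zero.1 (π.cL.trans_ne (Nat.succ_ne_zero _))).1
  obtain ⟨p₁, h1⟩ := π.exists_not l₂
  obtain ⟨p₂, h2, -⟩ := π.meet l₂ l₂
  obtain ⟨p₃, h3, h4, -⟩ := π.exists_pt l₂ p₂ p₂
  obtain ⟨p₄, h5, h6, h7⟩ := π.exists_pt l₂ p₂ p₃
  obtain ⟨l₁, h8, h9⟩ := π.join p₁ p₄
  obtain ⟨l₄, h10, h11⟩ := π.join p₁ p₂
  obtain ⟨l₃, h12, h13, h14⟩ := π.exists_ln p₂ l₂ l₄
  have e1 : l₁ ≠ l₂ := by rintro rfl; exact h1 h8
  have e2 : p₁ ≠ p₂ := by rintro rfl; exact h1 h2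
  refine ⟨p₁, p₂, p₃, l₁, l₂, l₃, ⟨h1, fun h => h14 (Inc.line_eq e2 h h12 h10 h11),
    fun h => h6 (Inc.pt_eq e1 h9 h h5 h2), h2, h12, fun h => h7 (Inc.pt_eq e1 h9 h h5 h3), h3,
    fun h => h4 (Inc.pt_eq h13 h h12 h3 h2)⟩, ?_⟩
  rintro _ rfl
  simp

theorem Two.isPrimePow (h : π.Two) (hn : Odd π.n) : IsPrimePow π.n := by
  refine isPrimePow_aux h _ ⊥ 0 _ rfl (by simp) planar_bot ?_ hn
  rw [← π.cP, show Fx ((⊥ : Subgroup G) : Set G) P = Set.univ by ext; simp [Fx]]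
  exact Nat.card_univ

theorem Two.exists_cen_even (h : π.Two) (hn : Even π.n) : ∃ (g : G) (c : P), g ≠ 1 ∧ π.Cen g c := by
  haveI := π.finP
  obtain ⟨l⟩ := (Nat.card_ne_zero.1 (π.cL.trans_ne (Nat.succ_ne_zero _))).1
  obtain ⟨x, hx, -⟩ := π.meet l l
  obtain ⟨y, -, hy, -⟩ := π.exists_pt l x x
  obtain ⟨Q, hQ, hp, hc⟩ := exists_sylow_le 2 (stabilizer G x)
  have key : ∀ j, 2 ^ j ∣ π.n → ∀ z, z ≠ x → 2 ^ j ∣ (orbit Q z).ncard := fun j hj z hz =>
    dvd_ncard_orbit hQ (hc.pow_left j) (by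
      rw [h.ncard_orbit hz.symm]
      exact dvd_add (hj.trans (dvd_pow_self _ two_ne_zero)) hj)
  haveI : Nontrivial Q := by
    by_contra h1
    haveI := not_nontrivial_iff_subsingleton.1 h1
    have h2 := key 1 (by simpa using hn.two_dvd) y hy
    rw [show orbit Q y = {y} from Set.eq_singleton_iff_unique_mem.2 ⟨mem_orbit_self y, by
      rintro _ ⟨q, rfl⟩
      rw [Subsingleton.elim q 1]
      exact one_smul _ y⟩, Set.ncard_singleton] at h2
    omega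
  haveI := hp.center_nontrivial
  obtain ⟨n, hn0, hn'⟩ := (hp.to_subgroup (Subgroup.center Q)).nontrivial_iff_card.1 inferInstance
  obtain ⟨w, hw⟩ := exists_prime_orderOf_dvd_card' (G := Subgroup.center Q) 2
    (hn' ▸ dvd_pow_self 2 hn0.ne')
  have hw1 : ((w : Q) : G) ≠ 1 := fun h1 => by
    rw [show w = 1 from Subtype.ext (Subtype.ext h1), orderOf_one] at hw
    omega
  have hw2 : ((w : Q) : G) * ((w : Q) : G) = 1 := by
    have := pow_orderOf_eq_one w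
    rw [hw, pow_two] at this
    exact congrArg (fun a : Subgroup.center Q => ((a : Q) : G)) this
  by_cases hpl : π.Planar {((w : Q) : G)}
  swap
  · obtain ⟨k, hk⟩ := exists_ax_of_invol hw2 hpl
    obtain ⟨c, hc⟩ := hk.exists_cen
    exact ⟨_, c, hw1, hc⟩
  exfalso
  obtain ⟨m, hm, h1 | h1⟩ := baer hw2 hpl
  · rw [← h1, ← π.cP, Nat.card_coe_set_eq] at hm
    have := Set.eq_univ_iff_forall.1 ((Set.eq_univ_iff_ncard _).2 hm)
    exact hw1 (π.faith fun a => this a _ rfl)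
  have h2 : ∀ j, 2 ^ j ∣ π.n → 2 ^ j ∣ m * (m + 1) := fun j hj => by
    have := dvd_ncard_of_orbits Q (Fx {((w : Q) : G)} P \ {x}) (fun g hg s hs => ⟨?_, fun h3 =>
      hs.2 (MulAction.injective g (Eq.trans h3 (hQ hg).symm))⟩) fun s hs => key j hj s hs.2
    · rwa [Set.ncard_diff_singleton_of_mem (show x ∈ Fx {((w : Q) : G)} P by
        rintro _ rfl; exact hQ (w : Q).2), ← Nat.card_coe_set_eq, hm,
        show m ^ 2 + m + 1 - 1 = m * (m + 1) by rw [Nat.add_sub_cancel]; ring] at this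
    · rintro _ rfl
      have h3 : g * ((w : Q) : G) = ((w : Q) : G) * g :=
        congrArg Subtype.val (Subgroup.mem_center_iff.1 w.2 ⟨g, hg⟩)
      rw [← mul_smul, ← h3, mul_smul, hs.1 _ rfl]
  have h3 := π.two_le
  have hm0 : m ≠ 0 := by rintro rfl; omega
  obtain ⟨s, t, ht, rfl⟩ := Nat.exists_eq_two_pow_mul_odd hm0
  rw [h1, Nat.even_pow' two_ne_zero] at hn
  have h4 := h2 (s + s) (by rw [h1, pow_add, pow_two]; exact mul_dvd_mul (dvd_mul_right _ _) (dvd_mul_right _ _))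
  rw [pow_add, mul_assoc, Nat.mul_dvd_mul_iff_left (by positivity)] at h4
  rcases s with _ | s
  · exact Nat.not_even_iff_odd.2 ht (by simpa using hn)
  · exact Nat.not_even_iff_odd.2 (ht.mul hn.add_one)
      (even_iff_two_dvd.2 ((dvd_pow_self 2 s.succ_ne_zero).trans h4))

theorem Two.exists_flag (h : π.Two) {p e : ℕ} (hp : p.Prime) (he : 0 < e) (hn : p ^ e = π.n)
    (x : P) : ∃ l, π.I x l ∧ ∀ k k', ¬ π.I x k → ¬ π.I x k' →
      ∃ g : G, g • x = x ∧ g • l = l ∧ g • k = k' := by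
  classical
  haveI := π.finP
  haveI := π.finL
  haveI := Fintype.ofFinite P
  haveI := Fintype.ofFinite L
  haveI : Fact p.Prime := ⟨hp⟩
  obtain ⟨Q, hQ, hQp, hc⟩ := exists_sylow_le p (stabilizer G x)
  have h1 : ∃ l, π.I x l ∧ ∀ q ∈ Q, q • l = l := by
    let T : SubMulAction Q L := ⟨{l | π.I x l}, fun g _ hs => I_smul' hs (hQ g.2)⟩
    obtain ⟨l, hl⟩ := hQp.nonempty_fixed_point_of_prime_not_dvd_card T (by
      change ¬ p ∣ {l | π.I x l}.ncard
      rw [π.cardP, ← hn, Nat.dvd_add_right (dvd_pow_self p he.ne')]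
      exact hp.one_lt.ne' ∘ Nat.dvd_one.1)
    exact ⟨l, l.2, fun q hq => congrArg Subtype.val (hl ⟨q, hq⟩)⟩
  obtain ⟨l, hl, hQl⟩ := h1
  refine ⟨l, hl, fun k k' hk hk' => ?_⟩
  have h2 : {k | ¬ π.I x k}.ncard = π.n ^ 2 := by
    have := Set.ncard_add_ncard_compl {l | π.I x l}
    rw [π.cardP, π.cL] at this
    change _ + {k | ¬ π.I x k}.ncard = _ at this
    omega
  have h3 : orbit (stabilizer G x) k = {k | ¬ π.I x k} := by
    ext j
    constructor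
    · rintro ⟨g, rfl⟩ h3
      exact hk ((π.smul g x k).1 (g.2.symm ▸ h3))
    · intro hj
      obtain ⟨g, h3, rfl⟩ := h.symD.anti (a := x) (b := x) hk hj
      exact ⟨⟨g, h3⟩, rfl⟩
  have h4 := dvd_ncard_orbit hQ (d := π.n ^ 2) (hn ▸ (hc.pow_left e).pow_left 2) (y := k)
    (by rw [h3, h2])
  have h5 : orbit Q k = {k | ¬ π.I x k} := by
    refine Set.eq_of_subset_of_ncard_le ?_ (h2 ▸ Nat.le_of_dvd ?_ h4)
    · rintro _ ⟨q, rfl⟩
      exact h3.le ⟨⟨q, hQ q.2⟩, rfl⟩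
    · exact (Set.ncard_pos).2 ⟨k, mem_orbit_self k⟩
  obtain ⟨q, rfl⟩ : k' ∈ orbit Q k := h5 ▸ hk'
  exact ⟨q, hQ q.2, hQl q q.2, rfl⟩

theorem Two.trans_pencil (h : π.Two) {p e : ℕ} (hp : p.Prime) (he : 0 < e) (hn : p ^ e = π.n)
    {x y : P} (hxy : x ≠ y) {k k' : L} (h1 : π.I y k) (h2 : π.I y k') (h3 : ¬ π.I x k)
    (h4 : ¬ π.I x k') : ∃ g : G, g • x = x ∧ g • y = y ∧ g • k = k' := by
  obtain ⟨l, hl, ht⟩ := h.exists_flag hp he hn x
  obtain ⟨z, hz, hzx, -⟩ := π.exists_pt l x x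
  obtain ⟨u, u1, rfl⟩ := h hzx.symm hxy
  obtain ⟨k, rfl⟩ := MulAction.surjective u k
  obtain ⟨k', rfl⟩ := MulAction.surjective u k'
  rw [← u1] at h3 h4
  rw [π.smul] at h1 h2 h3 h4
  obtain ⟨g, g1, g2, rfl⟩ := ht k k' h3 h4
  refine ⟨u * g * u⁻¹, ?_, (Elat.smul_conj_iff u g z).2 ?_, by simp [mul_smul]⟩
  · rw [← u1]
    exact (Elat.smul_conj_iff u g x).2 g1
  · exact Inc.pt_eq (by rintro h5; exact h4 (h5 ▸ hl)) ((π.smul _ _ _).2 h1) h2 (I_smul hz g2) hz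

theorem Two.cen_of_fix (h : π.Two) {p e : ℕ} (hp : p.Prime) (he : 0 < e) (hn : p ^ e = π.n)
    {x y : P} (hxy : x ≠ y) {Q : Subgroup G} (hQ : Q ≤ stabilizer G x ⊓ stabilizer G y)
    (hc : p.Coprime (Q.relIndex (stabilizer G x ⊓ stabilizer G y))) {k k' : L} (h1 : π.I y k)
    (h2 : π.I y k') (h3 : ¬ π.I x k) (h4 : ¬ π.I x k') : ∃ q ∈ Q, q • k = k' := by
  haveI := π.finL
  obtain ⟨l, l1, l2⟩ := π.join x y
  have h5 : ∀ j, j ∈ {j | π.I y j} \ {l} ↔ π.I y j ∧ ¬ π.I x j := fun j =>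
    and_congr_right fun hj => not_congr ⟨fun h => h ▸ l1, fun h => Inc.line_eq hxy h hj l1 l2⟩
  have h6 : orbit (stabilizer G x ⊓ stabilizer G y : Subgroup G) k = {j | π.I y j} \ {l} := by
    ext j
    rw [h5]
    constructor
    · rintro ⟨g, rfl⟩
      exact ⟨I_smul' h1 g.2.2, fun h6 => h3 ((π.smul g x k).1 ((show (g : G) • x = x from
        g.2.1).symm ▸ h6))⟩
    · intro hj
      obtain ⟨g, g1, g2, rfl⟩ := h.trans_pencil hp he hn hxy h1 hj.1 h3 hj.2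
      exact ⟨⟨g, g1, g2⟩, rfl⟩
  have h7 : ({j | π.I y j} \ {l}).ncard = π.n := π.dual.ncard_diff l2
  have h8 := dvd_ncard_orbit hQ (d := π.n) (hn ▸ hc.pow_left e) (y := k) (by rw [h6, h7])
  have h9 : orbit Q k = {j | π.I y j} \ {l} := by
    refine Set.eq_of_subset_of_ncard_le ?_ (h7 ▸ Nat.le_of_dvd ?_ h8)
    · rintro _ ⟨q, rfl⟩
      exact h6.le ⟨⟨q, hQ q.2⟩, rfl⟩
    · exact (Set.ncard_pos).2 ⟨k, mem_orbit_self k⟩
  obtain ⟨q, rfl⟩ : k' ∈ orbit Q k := h9 ▸ (h5 k').2 ⟨h2, h4⟩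
  exact ⟨q, q.2, rfl⟩

theorem Two.exists_cen_pp (h : π.Two) (hn : IsPrimePow π.n) :
    ∃ (g : G) (c : P), g ≠ 1 ∧ π.Cen g c := by
  classical
  haveI := π.finP
  haveI := π.finL
  haveI := Fintype.ofFinite P
  haveI := Fintype.ofFinite L
  obtain ⟨p, e, hp, he, hn⟩ := hn
  replace hp := hp.nat_prime
  haveI : Fact p.Prime := ⟨hp⟩
  obtain ⟨l⟩ := (Nat.card_ne_zero.1 (π.cL.trans_ne (Nat.succ_ne_zero _))).1
  obtain ⟨x, hx, -⟩ := π.meet l l
  obtain ⟨y, hy, hyx, -⟩ := π.exists_pt l x x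
  obtain ⟨Q, hQ, hQp, hc⟩ := exists_sylow_le p (stabilizer G x ⊓ stabilizer G y)
  haveI : Nontrivial Q := by
    obtain ⟨k, k1, k2, -⟩ := π.exists_ln y l l
    obtain ⟨k', k1', k2', k3⟩ := π.exists_ln y l k
    obtain ⟨q, hq, h1⟩ := h.cen_of_fix hp he hn hyx.symm hQ hc k1 k1'
      (fun h => k2 (Inc.line_eq hyx k1 h hy hx)) (fun h => k2' (Inc.line_eq hyx k1' h hy hx))
    exact ⟨⟨q, hq⟩, 1, fun h2 => k3 (by rw [← h1, show q = 1 from congrArg Subtype.val h2, one_smul])⟩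
  haveI := hQp.center_nontrivial
  obtain ⟨⟨⟨w, hwQ⟩, hw⟩, hw1⟩ := exists_ne (1 : Subgroup.center Q)
  replace hw1 : w ≠ 1 := fun h => hw1 (Subtype.ext (Subtype.ext h))
  replace hw : ∀ q ∈ Q, ∀ k : L, w • k = k → w • q • k = q • k := fun q hq k hk => by
    have h3 : q * w = w * q := congrArg Subtype.val (Subgroup.mem_center_iff.1 hw ⟨q, hq⟩)
    rw [← mul_smul, ← h3, mul_smul, hk]
  have fl : ∀ q ∈ Q, q • l = l := fun q hq => fix_line hyx hy hx (hQ hq).2 (hQ hq).1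
  have key : ∀ a b, a ≠ b → π.I a l → π.I b l → (∀ q ∈ Q, q • a = a ∧ q • b = b) →
      ∀ k, k ≠ l → π.I b k → w • k = k → π.Cen w b := by
    intro a b hab ha hb hle k hkl hbk hk j hj
    by_cases hjl : j = l
    · exact hjl ▸ fl w hwQ
    have hle' : Q ≤ stabilizer G a ⊓ stabilizer G b := hle
    obtain ⟨q, hq, rfl⟩ := h.cen_of_fix hp he hn hab hle' (by
      have e1 := (Q.subgroupOf (stabilizer G a ⊓ stabilizer G b)).card_mul_index
      have e2 := (Q.subgroupOf (stabilizer G x ⊓ stabilizer G y)).card_mul_index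
      rw [Nat.card_congr (Subgroup.subgroupOfEquivOfLe hle').toEquiv] at e1
      rw [Nat.card_congr (Subgroup.subgroupOfEquivOfLe hQ).toEquiv, h.card_eq hyx.symm hab,
        ← e1] at e2
      rwa [Subgroup.relIndex, ← Nat.eq_of_mul_eq_mul_left Nat.card_pos e2]) hbk hj
      (fun h => hkl (Inc.line_eq hab h hbk ha hb)) (fun h => hjl (Inc.line_eq hab h hj ha hb))
    exact hw q hq k hk
  obtain ⟨k, hk, hkl⟩ : ∃ k : L, w • k = k ∧ k ≠ l := by
    have h1 : 1 < (Finset.univ.filter fun k : L => w • k = k).card := by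
      rw [← h.symD.card_fix w]
      exact Finset.one_lt_card.2 ⟨y, by simpa using (hQ hwQ).2, x, by simpa using (hQ hwQ).1, hyx⟩
    obtain ⟨k, hk, hkl⟩ := Finset.exists_mem_ne h1 l
    exact ⟨k, by simpa using hk, hkl⟩
  obtain ⟨z, z1, z2⟩ := π.meet k l
  by_cases hz : ∀ q ∈ Q, q • z = z
  · by_cases hzx : x = z
    · subst hzx
      exact ⟨w, x, hw1, key y x hyx hy hx (fun q hq => ⟨(hQ hq).2, (hQ hq).1⟩) k hkl z1 hk⟩
    · exact ⟨w, z, hw1, key x z hzx hx z2 (fun q hq => ⟨(hQ hq).1, hz q hq⟩) k hkl z1 hk⟩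
  push Not at hz
  obtain ⟨q, hq, hqz⟩ := hz
  obtain ⟨u, u1, u2⟩ := π.meet k (q • k)
  have h1 : π.I (q • z) (q • k) := (π.smul _ _ _).2 z1
  have h2 : π.I (q • z) l := I_smul z2 (fl q hq)
  have h3 : k ≠ q • k := fun h3 => hqz (Inc.pt_eq hkl (h3 ▸ h1) z1 h2 z2)
  have h4 : ¬ π.I u l := fun h4 => by
    obtain rfl := Inc.pt_eq hkl u1 z1 h4 z2
    refine hkl (MulAction.injective q ?_)
    exact (Inc.line_eq hqz h1 u2 h2 z2).trans (fl q hq).symm
  obtain ⟨j, j1, j2⟩ := π.join u x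
  exact ⟨w, x, hw1, key y x hyx hy hx (fun q hq => ⟨(hQ hq).2, (hQ hq).1⟩) j
    (by rintro rfl; exact h4 j1) j2 (fix_line (by rintro rfl; exact h4 hx) j1 j2
      (fix_pt h3 u1 u2 hk (hw q hq k hk)) (hQ hwQ).1)⟩

theorem Two.exists_cen (h : π.Two) : ∃ (g : G) (c : P), g ≠ 1 ∧ π.Cen g c :=
  (Nat.even_or_odd π.n).elim h.exists_cen_even fun hn => h.exists_cen_pp (h.isPrimePow hn)

omit [Finite G] in
theorem col_iff {x y z : P} {l : L} (h : x ≠ y) (hx : π.I x l) (hy : π.I y l) :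
    (∀ k, π.I x k → π.I y k → π.I z k) ↔ π.I z l :=
  ⟨fun h => h l hx hy, fun hz _ h1 h2 => Inc.line_eq h hx hy h1 h2 ▸ hz⟩

/-- The plane as a linear space with its central collineations. -/
def Two.central (h : π.Two) : Central G P where
  Col x y z := ∀ k, π.I x k → π.I y k → π.I z k
  left _ _ _ h _ := h
  right _ _ _ _ h := h
  iff {x y u v w} h h' hu hv := by
    obtain ⟨l, h1, h2⟩ := π.join x y
    rw [col_iff h h1 h2, col_iff h' (hu l h1 h2) (hv l h1 h2)]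
  smul g x y z h k h1 h2 := by
    obtain ⟨k, rfl⟩ := MulAction.surjective g k
    simp only [π.smul] at h1 h2 ⊢
    exact h k h1 h2
  K x :=
    { carrier := {g | π.Cen g x}
      one_mem' := Cen.one x
      mul_mem' := Cen.mul
      inv_mem' := Cen.inv }
  conj g _ _ h := Cen.conj h g
  fix := Cen.fix
  pres _ h _ k h1 h2 := I_smul h2 (h k h1)
  two h1 h2 := h h1 h2
  faith := π.faith
  nontriv := by
    obtain ⟨g, c, h1, h2⟩ := h.exists_cen
    exact ⟨c, g, h2, h1⟩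
  notall {x y} _ := by
    obtain ⟨l, h1, h2⟩ := π.join x y
    obtain ⟨t, ht⟩ := π.exists_not l
    exact ⟨t, fun h => ht (h l h1 h2)⟩
  big {x y n} hn _ hf t ht := by
    obtain ⟨k, hk⟩ := Cen.exists_ax hn
    obtain ⟨l, h1, h2⟩ := π.join x y
    obtain ⟨a, ha, -⟩ := π.meet k k
    obtain ⟨b, hb, hba, -⟩ := π.exists_pt k a a
    exact hk t (Inc.line_eq hba hb ha (hf b (hk b hb) l h1 h2) (hf a (hk a ha) l h1 h2) ▸ ht l h1 h2)

theorem Two.desarguesian (h : π.Two) :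
    ∃ (F : Type) (_ : Field F) (_ : Fintype F) (φ : P ≃ Projectivization F (Fin 3 → F)),
      (∀ l : L, ∃ W : Submodule F (Fin 3 → F), Module.finrank F W = 2 ∧
          ∀ p : P, π.I p l ↔ (φ p).submodule ≤ W) ∧
      (∀ W : Submodule F (Fin 3 → F), Module.finrank F W = 2 →
          ∃ l : L, ∀ p : P, π.I p l ↔ (φ p).submodule ≤ W) := by
  obtain ⟨p, _, E, hE⟩ := h.central.exists_elat
  obtain ⟨F, i1, i2, n, ψ, hψ⟩ := E.exists_isCoord
  have key : ∀ {u v w : Fin n → F} {l : L}, u ≠ 0 → v ≠ 0 → w ≠ 0 → ψ u ≠ ψ v → π.I (ψ u) l →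
      π.I (ψ v) l → (π.I (ψ w) l ↔ ∃ a b : F, a • u + b • v = w) := fun hu hv hw hne h1 h2 => by
    rw [← hψ.col_iff hu hv hw hne, hE hne]
    exact (col_iff hne h1 h2).symm
  obtain rfl : n = 3 := by
    have h3 := Elat.three_le hψ
    rw [Fintype.card_fin] at h3
    by_contra hne
    obtain ⟨n, rfl⟩ : ∃ k, n = k + 4 := ⟨n - 4, by omega⟩
    have h0 : ∀ i : Fin (n + 4), (Pi.single i 1 : Fin (n + 4) → F) ≠ 0 := fun i => by simp
    have h1 : ∀ i j : Fin (n + 4), i ≠ j → ψ (Pi.single i 1) ≠ ψ (Pi.single j 1) := by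
      intro i j hij h1
      obtain ⟨s, hs⟩ := (hψ.eq_iff (h0 i) (h0 j)).1 h1
      simpa [hij] using congrFun hs i
    obtain ⟨l, l1, l2⟩ := π.join (ψ (Pi.single 0 1)) (ψ (Pi.single 1 1))
    obtain ⟨k, k1, k2⟩ := π.join (ψ (Pi.single 2 1)) (ψ (Pi.single 3 1))
    obtain ⟨z, z1, z2⟩ := π.meet l k
    obtain ⟨w, hw, rfl⟩ := hψ.surj z
    have m2 := Nat.mod_eq_of_lt (show 2 < n + 4 by omega)
    have m3 := Nat.mod_eq_of_lt (show 3 < n + 4 by omega)
    have n01 : (0 : Fin (n + 4)) ≠ 1 := Fin.ne_of_val_ne (by simp [m2, m3])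
    have n02 : (0 : Fin (n + 4)) ≠ 2 := Fin.ne_of_val_ne (by simp [m2, m3])
    have n03 : (0 : Fin (n + 4)) ≠ 3 := Fin.ne_of_val_ne (by simp [m2, m3])
    have n12 : (1 : Fin (n + 4)) ≠ 2 := Fin.ne_of_val_ne (by simp [m2, m3])
    have n13 : (1 : Fin (n + 4)) ≠ 3 := Fin.ne_of_val_ne (by simp [m2, m3])
    have n23 : (2 : Fin (n + 4)) ≠ 3 := Fin.ne_of_val_ne (by simp [m2, m3])
    obtain ⟨a, b, e1⟩ := (key (h0 0) (h0 1) hw (h1 _ _ n01) l1 l2).1 z1
    obtain ⟨c, d, e2⟩ := (key (h0 2) (h0 3) hw (h1 _ _ n23) k1 k2).1 z2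
    have e3 := congrFun (e1.trans e2.symm) 0
    have e4 := congrFun (e1.trans e2.symm) 1
    simp [n01, n02, n03, n12, n13, n01.symm] at e3 e4
    exact hw (by rw [← e1, e3, e4]; simp)
  obtain ⟨φ, hφ⟩ := hψ.exists_equiv
  have key2 : ∀ {u v : Fin 3 → F} {l : L}, u ≠ 0 → v ≠ 0 → ψ u ≠ ψ v → π.I (ψ u) l →
      π.I (ψ v) l → ∀ z, π.I z l ↔ (φ z).submodule ≤ Submodule.span F {u, v} := by
    intro u v l hu hv hne h1 h2 z
    obtain ⟨w, hw, rfl⟩ := hψ.surj z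
    rw [key hu hv hw hne h1 h2, hφ w hw, Projectivization.submodule_mk,
      Submodule.span_singleton_le_iff_mem, Submodule.mem_span_pair]
  refine ⟨F, i1, i2, φ, fun l => ?_, fun W hW => ?_⟩
  · obtain ⟨a, ha, -⟩ := π.meet l l
    obtain ⟨b, hb, hba, -⟩ := π.exists_pt l a a
    obtain ⟨u, hu, rfl⟩ := hψ.surj a
    obtain ⟨v, hv, rfl⟩ := hψ.surj b
    exact ⟨_, hψ.finrank_span hv hu hba, key2 hv hu hba hb ha⟩
  · let B := Module.finBasisOfFinrankEq F W hW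
    have hB := B.linearIndependent.map' W.subtype W.ker_subtype
    have hu : ((B 0 : W) : Fin 3 → F) ≠ 0 := hB.ne_zero 0
    have hv : ((B 1 : W) : Fin 3 → F) ≠ 0 := hB.ne_zero 1
    have hne : ψ (B 0) ≠ ψ (B 1) := fun h1 => by
      obtain ⟨s, hs⟩ := (hψ.eq_iff hu hv).1 h1
      have := congrFun (congrArg B.repr (Subtype.ext hs : s • B 1 = B 0) ▸ rfl :
        (B.repr (s • B 1) : Fin 2 → F) = B.repr (B 0)) 0
      simp at this
    obtain ⟨l, l1, l2⟩ := π.join (ψ (B 0)) (ψ (B 1))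
    refine ⟨l, ?_⟩
    rw [← Submodule.eq_of_le_of_finrank_eq (S₁ := Submodule.span F {(B 0 : Fin 3 → F), (B 1 : Fin 3 → F)})
      (S₂ := W) (Submodule.span_le.2 (by rintro _ (rfl | rfl) <;> exact Subtype.property _))
      ((hψ.finrank_span hu hv hne).trans hW.symm)]
    exact key2 hu hv hne l1 l2

end Pl

end H81
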