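import Mathlib
import Cfsg.Agent.Base

/-! Fitting's lemma for normal endomorphisms and the Krull-Remak-Schmidt exchange lemma
(helper81). -/

set_option autoImplicit false

namespace H81

theorem exists_pow_add_self_eq {M : Type*} [Monoid M] [Finite M] (x : M) :
    ∃ N : ℕ, 0 < N ∧ x ^ (N + N) = x ^ N := by
  obtain ⟨i, j, hij, h⟩ := Finite.exists_ne_map_eq_of_infinite (fun n : ℕ => x ^ n)
  wlog hlt : i < j generalizing i j
  · exact this j i hij.symm h.symm (by omega)
  obtain ⟨d, rfl⟩ := Nat.exists_eq_add_of_lt hlt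
  have hk : ∀ k : ℕ, x ^ (i + k * (d + 1)) = x ^ i := by
    intro k
    induction k with
    | zero => simp
    | succ k ih =>
      have : i + (k + 1) * (d + 1) = (i + d + 1) + k * (d + 1) := by ring
      rw [this, pow_add, ← h, ← pow_add, ih]
  refine ⟨(i + 1) * (d + 1), by positivity, ?_⟩
  have h1 : (i + 1) * (d + 1) = (i * d + d + 1) + i := by ring
  have h2 : (i + 1) * (d + 1) + (i + 1) * (d + 1) = (i * d + d + 1) + (i + (i + 1) * (d + 1)) := by
    ring
  rw [h2, pow_add, hk, ← pow_add, ← h1]

/-- directly indecomposable -/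
def Indec (A : Type*) [Group A] : Prop :=
  ∀ H K : Subgroup A, H.Normal → K.Normal → H ⊓ K = ⊥ → H ⊔ K = ⊤ → H = ⊥ ∨ K = ⊥

/-- a normal endomorphism -/
def IsNormalEnd {A : Type*} [Group A] (ψ : A →* A) : Prop :=
  ∀ g a : A, ψ (g * a * g⁻¹) = g * ψ a * g⁻¹

theorem IsNormalEnd.range_normal {A : Type*} [Group A] {ψ : A →* A} (h : IsNormalEnd ψ) :
    ψ.range.Normal :=
  ⟨by rintro _ ⟨a, rfl⟩ g; exact ⟨_, h g a⟩⟩

/-- Fitting's lemma. -/
theorem injective_of_fixed {A : Type*} [Group A] [Finite A] (hA : Indec A) {ψ : A →* A}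
    (h : IsNormalEnd ψ) {a : A} (ha : a ≠ 1) (hfix : ψ a = a) : Function.Injective ψ := by
  have : Finite (Monoid.End A) := Finite.of_injective _ (DFunLike.coe_injective (F := A →* A))
  let f : Monoid.End A := ψ
  obtain ⟨N, hN, hf⟩ := exists_pow_add_self_eq f
  have hn : ∀ n : ℕ, IsNormalEnd (f ^ n : Monoid.End A) := by
    intro n
    induction n with
    | zero => intro g a; rfl
    | succ n ih =>
      intro g a
      rw [pow_succ]
      change (f ^ n) (ψ _) = g * (f ^ n) (ψ a) * g⁻¹
      rw [h g a]
      exact ih g _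
  have hfa : ∀ n : ℕ, (f ^ n) a = a := by
    intro n
    induction n with
    | zero => rfl
    | succ n ih =>
      rw [pow_succ]
      change (f ^ n) (ψ _) = a
      rw [hfix, ih]
  let e : A →* A := (f ^ N : Monoid.End A)
  have he : ∀ x, e (e x) = e x := fun x => by
    have := DFunLike.congr_fun hf x
    rw [pow_add] at this
    exact this
  rcases hA e.ker e.range inferInstance (hn N).range_normal (by
      rw [eq_bot_iff]
      rintro _ ⟨h1, x, rfl⟩
      have h2 : e (e x) = 1 := h1
      rw [he] at h2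
      exact h2) (by
      rw [eq_top_iff]
      intro x _
      have : x = (x * (e x)⁻¹) * e x := by group
      rw [this]
      refine Subgroup.mul_mem _ (Subgroup.mem_sup_left ?_) (Subgroup.mem_sup_right ⟨x, rfl⟩)
      rw [MonoidHom.mem_ker, map_mul, map_inv, he, mul_inv_cancel]) with h1 | h1
  · have hinj : Function.Injective e := (MonoidHom.ker_eq_bot_iff e).1 h1
    obtain ⟨N, rfl⟩ := Nat.exists_eq_add_of_lt hN
    intro x y hxy
    apply hinj
    change (f ^ (0 + N + 1)) x = (f ^ (0 + N + 1)) y
    rw [pow_succ]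
    change (f ^ (0 + N)) (ψ x) = (f ^ (0 + N)) (ψ y)
    rw [hxy]
  · exfalso
    have : a ∈ e.range := ⟨a, hfa N⟩
    rw [h1] at this
    exact ha this

theorem injective_or_of_mul {A : Type*} [Group A] [Finite A] (hA : Indec A) {φ ψ θ : A →* A}
    (hψ : IsNormalEnd ψ) (hθ : IsNormalEnd θ) (hθi : Function.Injective θ)
    (h : ∀ a, θ a = φ a * ψ a) : Function.Injective φ ∨ Function.Injective ψ := by
  by_cases hφ : Function.Injective φ
  · exact Or.inl hφ
  right
  rw [← MonoidHom.ker_eq_bot_iff] at hφ
  obtain ⟨a, ha⟩ := (Subgroup.ne_bot_iff_exists_ne_one.1 hφ)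
  let e : A ≃* A := MulEquiv.ofBijective θ (Finite.injective_iff_bijective.1 hθi)
  have hn : IsNormalEnd ((e.symm : A →* A).comp ψ) := by
    intro g x
    apply hθi
    rw [hθ]
    change e (e.symm (ψ _)) = g * e (e.symm (ψ x)) * g⁻¹
    rw [e.apply_symm_apply, e.apply_symm_apply, hψ]
  have := injective_of_fixed hA hn (a := a) (fun h0 => ha (Subtype.ext h0)) (by
    apply hθi
    change e (e.symm (ψ _)) = θ a
    rw [e.apply_symm_apply, h, MonoidHom.mem_ker.1 a.2, one_mul])
  intro x y hxy
  apply this
  simp [hxy]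

/-- exchange lemma with two factors -/
theorem exchange {A C B D : Type*} [Group A] [Group B] [Group C] [Group D] [Finite A] [Finite B]
    [Finite C] [Finite D] [Nontrivial A] (hB : Indec B) (e : A × C ≃* B × D)
    (h : Function.Injective fun a : A => (e.symm ((e (a, 1)).1, 1)).1) :
    Nonempty (A ≃* B) ∧ Nonempty (C ≃* D) := by
  let α : A →* B := (MonoidHom.fst B D).comp ((e : A × C →* B × D).comp (MonoidHom.inl A C))
  let β : B →* A := (MonoidHom.fst A C).comp ((e.symm : B × D →* A × C).comp (MonoidHom.inl B D))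
  have hβα : Function.Injective (β.comp α) := h
  have hα : Function.Injective α := Function.Injective.of_comp (f := β) hβα
  have hsurj : Function.Surjective (β.comp α) := Finite.injective_iff_surjective.1 hβα
  have hn : α.range.Normal := ⟨by
    rintro _ ⟨a, rfl⟩ g
    refine ⟨(e.symm (g, 1)).1 * a * (e.symm (g, 1)).1⁻¹, ?_⟩
    have : ((e.symm (g, 1)).1 * a * (e.symm (g, 1)).1⁻¹, (1 : C)) =
        e.symm (g, 1) * (a, 1) * (e.symm (g, 1))⁻¹ := by
      ext <;> simp
    change (e (_, 1)).1 = g * (e (a, 1)).1 * g⁻¹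
    rw [this]
    simp⟩
  have hαs : Function.Surjective α := by
    rcases hB α.range β.ker hn inferInstance (by
      rw [eq_bot_iff]
      rintro _ ⟨⟨a, rfl⟩, h1⟩
      have : a = 1 := hβα (by rw [map_one]; exact h1)
      simp [this]) (by
      rw [eq_top_iff]
      intro x _
      obtain ⟨a, ha⟩ := hsurj (β x)
      have : x = α a * ((α a)⁻¹ * x) := by group
      rw [this]
      refine Subgroup.mul_mem _ (Subgroup.mem_sup_left ⟨a, rfl⟩) (Subgroup.mem_sup_right ?_)
      rw [MonoidHom.mem_ker, map_mul, map_inv, ← ha]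
      simp) with h1 | h1
    · exfalso
      obtain ⟨a, ha⟩ := exists_ne (1 : A)
      have : α a ∈ α.range := ⟨a, rfl⟩
      rw [h1] at this
      exact ha (hα (by rw [map_one]; exact this))
    · intro x
      obtain ⟨a, ha⟩ := hsurj (β x)
      exact ⟨a, (MonoidHom.ker_eq_bot_iff β).1 h1 ha⟩
  let eA : A ≃* B := MulEquiv.ofBijective α ⟨hα, hαs⟩
  refine ⟨⟨eA⟩, ?_⟩
  let γ : D →* C := (MonoidHom.snd A C).comp ((e.symm : B × D →* A × C).comp (MonoidHom.inr B D))
  have hγ : Function.Injective γ := by
    rw [injective_iff_map_eq_one]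
    intro d hd
    have h1 : (e.symm (1, d)).2 = 1 := hd
    have h2 : e.symm (1, d) = ((e.symm (1, d)).1, 1) := by rw [← h1]
    have h3 : α (e.symm (1, d)).1 = 1 := by
      change (e (_, 1)).1 = 1
      rw [← h2]; simp
    have h4 : (e.symm (1, d)).1 = 1 := hα (by rw [map_one]; exact h3)
    rw [h4] at h2
    have h5 := congrArg e h2
    rw [e.apply_symm_apply] at h5
    have h6 : e (1, 1) = 1 := map_one e
    rw [h6] at h5
    exact congrArg Prod.snd h5
  have hc : Nat.card D = Nat.card C := by
    have h1 := Nat.card_congr e.toEquiv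
    rw [Nat.card_prod, Nat.card_prod, Nat.card_congr eA.toEquiv] at h1
    exact (Nat.eq_of_mul_eq_mul_left Nat.card_pos h1).symm
  exact ⟨(MulEquiv.ofBijective γ ((Nat.bijective_iff_injective_and_card γ).2 ⟨hγ, hc⟩)).symm⟩

/-- splitting off one factor of a finite product -/
def piSplit {n : ℕ} (B : Fin (n + 1) → Type*) [∀ j, Group (B j)] (j : Fin (n + 1)) :
    (∀ i, B i) ≃* B j × (∀ i, B (j.succAbove i)) :=
  { (Fin.insertNthEquiv B j).symm with map_mul' := fun _ _ => rfl }

/-- the projection onto the coordinates in `S` -/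
def piProj {ι : Type*} [DecidableEq ι] (B : ι → Type*) [∀ j, Group (B j)] (S : Finset ι) :
    (∀ i, B i) →* (∀ i, B i) where
  toFun x := fun i => if i ∈ S then x i else 1
  map_one' := by ext i; simp
  map_mul' x y := by ext i; by_cases h : i ∈ S <;> simp [h]

theorem exists_injective_coord {A C ι : Type*} [Fintype ι] [DecidableEq ι] [Group A] [Group C]
    [Finite A] [Nontrivial A] (hA : Indec A) {B : ι → Type*} [∀ j, Group (B j)]
    (e : A × C ≃* ∀ i, B i) :
    ∃ j, Function.Injective fun a : A => (e.symm (piProj B {j} (e (a, 1)))).1 := by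
  let φ : Finset ι → A →* A := fun S => (MonoidHom.fst A C).comp ((e.symm : _ →* A × C).comp
    ((piProj B S).comp ((e : A × C →* _).comp (MonoidHom.inl A C))))
  have hφ : ∀ S a, φ S a = (e.symm (piProj B S (e (a, 1)))).1 := fun _ _ => rfl
  have hn : ∀ S, IsNormalEnd (φ S) := by
    intro S g a
    have h1 : ((g * a * g⁻¹, 1) : A × C) = (g, 1) * (a, 1) * (g, 1)⁻¹ := by ext <;> simp
    have h2 : ∀ x y : ∀ i, B i, piProj B S (x * y * x⁻¹) = x * piProj B S y * x⁻¹ := by
      intro x y
      ext i
      by_cases h : i ∈ S <;> simp [piProj, h]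
    rw [hφ, hφ, h1, map_mul e, map_mul e, map_inv e, h2]
    simp
  have key : ∀ S : Finset ι, Function.Injective (φ S) → ∃ j, Function.Injective (φ {j}) := by
    intro S
    induction S using Finset.induction_on with
    | empty =>
      intro h
      obtain ⟨a, ha⟩ := exists_ne (1 : A)
      exfalso
      apply ha
      apply h
      have : piProj B ∅ (e (a, 1)) = 1 := by ext i; simp [piProj]
      rw [map_one, hφ, this]
      simp
    | insert j S hj ih =>
      intro h
      rcases injective_or_of_mul hA (φ := φ S) (hn {j}) (hn _) h (fun a => by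
        have : ∀ x : ∀ i, B i, piProj B (insert j S) x = piProj B S x * piProj B {j} x := by
          intro x
          ext i
          by_cases h1 : i = j
          · subst h1; simp [piProj, hj]
          · by_cases h2 : i ∈ S <;> simp [piProj, h1, h2]
        rw [hφ, hφ, hφ, this, map_mul, Prod.fst_mul]) with h1 | h1
      · exact ih h1
      · exact ⟨j, h1⟩
  apply key Finset.univ
  intro a b hab
  have : ∀ x : ∀ i, B i, piProj B Finset.univ x = x := fun x => by ext i; simp [piProj]
  rw [hφ, hφ, this, this] at hab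
  simpa using hab

universe u v in
theorem krs (m : ℕ) : ∀ {n : ℕ} {A : Fin m → Type u} {B : Fin n → Type v} [∀ i, Group (A i)]
    [∀ j, Group (B j)] [∀ i, Finite (A i)] [∀ j, Finite (B j)]
    (_ : ∀ i, Nontrivial (A i) ∧ Indec (A i)) (_ : ∀ j, Nontrivial (B j) ∧ Indec (B j))
    (_ : ((i : Fin m) → A i) ≃* ((j : Fin n) → B j)),
    ∃ σ : Fin m ≃ Fin n, ∀ i, Nonempty (A i ≃* B (σ i)) := by
  induction m with
  | zero =>
    intro n A B _ _ _ _ hA hB e
    cases n with
    | zero => exact ⟨Equiv.refl _, fun i => i.elim0⟩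
    | succ n =>
      exfalso
      have := (hB 0).1
      have h1 : Nontrivial ((j : Fin (n + 1)) → B j) := Pi.nontrivial_at 0
      have h2 : Subsingleton ((j : Fin (n + 1)) → B j) := e.symm.injective.subsingleton
      exact not_nontrivial _ h1
  | succ m ih =>
    intro n A B _ _ _ _ hA hB e
    have := (hA 0).1
    let e1 := (piSplit A 0).symm.trans e
    obtain ⟨j, hj⟩ := exists_injective_coord (hA 0).2 e1
    cases n with
    | zero => exact j.elim0
    | succ n =>
      let e2 := e1.trans (piSplit B j)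
      obtain ⟨h1, ⟨h2⟩⟩ := exchange (hB j).2 e2 (by
        convert hj using 2 with a
        congr 1
        apply e1.injective
        rw [e1.apply_symm_apply]
        apply (piSplit B j).injective
        change e2 _ = _
        rw [e2.apply_symm_apply]
        ext
        · change e1 (a, 1) j = if j ∈ ({j} : Finset _) then e1 (a, 1) j else 1
          simp
        · rename_i i
          change 1 = if j.succAbove i ∈ ({j} : Finset _) then e1 (a, 1) (j.succAbove i) else 1
          simp)
      obtain ⟨σ, hσ⟩ := ih (fun i => hA _) (fun i => hB _) h2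
      refine ⟨(finSuccEquiv' 0).trans ((Equiv.optionCongr σ).trans (finSuccEquiv' j).symm), ?_⟩
      intro i
      rcases Fin.eq_self_or_eq_succAbove 0 i with rfl | ⟨i, rfl⟩
      · have h0 : ((finSuccEquiv' 0).trans ((Equiv.optionCongr σ).trans (finSuccEquiv' j).symm)) 0
            = j := by simp
        rw [h0]
        exact h1
      · have h0 : ((finSuccEquiv' 0).trans ((Equiv.optionCongr σ).trans (finSuccEquiv' j).symm))
            (Fin.succAbove 0 i) = j.succAbove (σ i) := by
          rw [Equiv.trans_apply, finSuccEquiv'_succAbove]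
          simp
        rw [h0]
        exact hσ i

end H81
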